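import Cfsg.Agent.H77.SgDefs

/-!
# Elementary facts on the field of multiplications
-/

set_option autoImplicit false

namespace Cfsg.Agent.H51.SgKit

open Module Cfsg.Agent.H77.Sg

universe u v

variable {F : Type u} {K : Type v} [Field F] [Field K] [Algebra F K]

theorem sub_top (hp : (finrank F K).Prime) (S : Subalgebra F K) {s : K} (hs : s ∉ F ∙ (1 : K))
    (h : s ∈ S) : S = ⊤ := by
  haveI := Subalgebra.isSimpleOrder_of_finrank_prime F K hp
  refine (eq_bot_or_eq_top S).resolve_left fun e => hs ?_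
  rw [e, Algebra.mem_bot] at h
  obtain ⟨c, rfl⟩ := h
  exact Submodule.mem_span_singleton.2 ⟨c, (Algebra.algebraMap_eq_smul_one c).symm⟩

theorem g1 (g : K ≃ₗ[F] K) : g 1 ≠ 0 := by simp

theorem nm_eq {g : K ≃ₗ[F] K} (h : Nm g) (a x : K) : g (a * x) = g a / g 1 * g x := by
  obtain ⟨a', ha⟩ := h a
  have := ha 1
  rw [mul_one] at this
  rw [ha, this, mul_div_cancel_right₀ _ (g1 g)]

variable (F K) in
/-- The normaliser of the field of multiplications. -/
def NN : Subgroup (K ≃ₗ[F] K) where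
  carrier := {g | Nm g}
  one_mem' a := ⟨a, fun _ => rfl⟩
  mul_mem' {g h} hg hh a := by
    obtain ⟨b, hb⟩ := hh a
    obtain ⟨c, hc⟩ := hg b
    exact ⟨c, fun x => by rw [LinearEquiv.mul_apply, hb, hc]; rfl⟩
  inv_mem' {g} hg a := ⟨g⁻¹ (a * g 1), fun x => g.injective (by
    rw [nm_eq hg]
    simp [mul_div_cancel_right₀ _ (g1 g)])⟩

/-- The induced field automorphism. -/
noncomputable def sig (g : NN F K) : K ≃ₐ[F] K :=
  AlgEquiv.ofBijective
    ({ toFun := fun a => g.1 a / g.1 1
       map_one' := div_self (g1 _)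
       map_mul' := fun a b => by rw [nm_eq g.2, mul_div_assoc]
       map_zero' := by simp
       map_add' := fun a b => by rw [map_add, add_div]
       commutes' := fun c => by
        rw [Algebra.algebraMap_eq_smul_one, map_smul, smul_div_assoc, div_self (g1 _)] } :
      K →ₐ[F] K)
    ⟨fun a b h => g.1.injective ((div_left_inj' (g1 _)).1 h), fun b =>
      ⟨g.1.symm (b * g.1 1), by simp [mul_div_cancel_right₀ _ (g1 g.1)]⟩⟩

theorem sig_apply (g : NN F K) (a : K) : sig g a = g.1 a / g.1 1 := rfl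

/-- The homomorphism to the Galois group. -/
noncomputable def sigH : NN F K →* (K ≃ₐ[F] K) :=
  MonoidHom.mk' sig fun g h => AlgEquiv.ext fun a => by
    rw [AlgEquiv.mul_apply, sig_apply, sig_apply, sig_apply]
    change g.1 (h.1 a) / g.1 (h.1 1) = _
    have := nm_eq g.2 (h.1 a / h.1 1) (h.1 1)
    rw [div_mul_cancel₀ _ (g1 _)] at this
    rw [this, mul_div_cancel_right₀ _ (by simp)]

theorem sigH_ker : (sigH (F := F) (K := K)).ker = (mulH F K).range.subgroupOf (NN F K) := by
  ext g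
  constructor
  · intro h
    refine ⟨Units.mk0 _ (g1 g.1), LinearEquiv.ext fun x => ?_⟩
    have : g.1 x / g.1 1 = x := DFunLike.congr_fun h x
    rw [div_eq_iff (g1 _), mul_comm] at this
    exact this.symm
  · rintro ⟨a, ha⟩
    refine AlgEquiv.ext fun x => ?_
    change g.1 x / g.1 1 = x
    change mulH F K a = g.1 at ha
    rw [← ha, mulH_apply, mulH_apply, mul_one, mul_div_cancel_left₀ _ a.ne_zero]

theorem of_ker {g : NN F K} (h : sigH g = 1) : ∃ a : Kˣ, g.1 = mulH F K a := by
  have : g ∈ (sigH (F := F) (K := K)).ker := h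
  rw [sigH_ker] at this
  obtain ⟨a, ha⟩ := this
  exact ⟨a, ha.symm⟩

/-- **KIT** -/
theorem kit : KitStmt.{u, v} := by
  intro F K _ _ _ _ _ hp
  haveI : FiniteDimensional F K := Module.Finite.of_finite
  have cd := IsGalois.card_aut_eq_finrank F K
  have pw : ∀ g : NN F K, sigH g ^ finrank F K = 1 := fun g => cd ▸ pow_card_eq_one'
  refine ⟨fun g s a' hs h => ?_, fun g s hs h => ?_, fun g hg => ?_, fun g t hg ht hc => ?_,
    ⟨NN F K, fun _ => Iff.rfl, ?_⟩, fun s t hc hs h1 hm => h1 ?_, fun t ht => ?_⟩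
  · let S : Subalgebra F K :=
      { carrier := {a | ∃ a', ∀ x, g (a * x) = a' * g x}
        mul_mem' := fun {a b} ⟨a', ha⟩ ⟨b', hb⟩ =>
          ⟨a' * b', fun x => by rw [mul_assoc, ha, hb, mul_assoc]⟩
        add_mem' := fun {a b} ⟨a', ha⟩ ⟨b', hb⟩ =>
          ⟨a' + b', fun x => by rw [add_mul, map_add, ha, hb, add_mul]⟩
        algebraMap_mem' := fun c => ⟨algebraMap F K c, fun x => by
          rw [← Algebra.smul_def, ← Algebra.smul_def, map_smul]⟩ }
    have := sub_top hp S hs ⟨a', h⟩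
    exact fun a => (this ▸ Algebra.mem_top : a ∈ S)
  · let S : Subalgebra F K :=
      { carrier := {a | ∀ x, g (a * x) = a * g x}
        mul_mem' := fun {a b} ha hb x => by rw [mul_assoc, ha, hb, mul_assoc]
        add_mem' := fun {a b} ha hb x => by rw [add_mul, map_add, ha, hb, add_mul]
        algebraMap_mem' := fun c x => by
          rw [← Algebra.smul_def, ← Algebra.smul_def, map_smul] }
    have := sub_top hp S hs h
    refine ⟨Units.mk0 _ (g1 g), LinearEquiv.ext fun x => ?_⟩
    have h2 := (this ▸ Algebra.mem_top : x ∈ S) 1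
    rw [mul_one, mul_comm] at h2
    exact h2
  · exact of_ker (g := (⟨g, hg⟩ : NN F K) ^ finrank F K) (by rw [map_pow, pw])
  · refine of_ker (g := ⟨g, hg⟩) ?_
    have h1 : sigH (⟨g, hg⟩ : NN F K) ^ t = 1 := by
      rw [← map_pow, show (⟨g, hg⟩ : NN F K) ^ t = 1 from Subtype.ext ht, map_one]
    have := pow_gcd_eq_one.2 ⟨h1, pw ⟨g, hg⟩⟩
    rwa [hc.gcd_eq_one, pow_one] at this
  · rw [Subgroup.relIndex, ← sigH_ker, Subgroup.index_ker, ← cd]
    exact Subgroup.card_subgroup_dvd_card _
  · obtain ⟨c, hc'⟩ := Submodule.mem_span_singleton.1 hm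
    have c0 : c ≠ 0 := fun e => s.ne_zero (by rw [← hc', e, zero_smul])
    haveI := Fintype.ofFinite F
    have h2 : s ^ (Nat.card F - 1) = 1 := Units.ext (by
      rw [Units.val_pow_eq_pow_val, ← hc', ← Algebra.algebraMap_eq_smul_one, ← map_pow,
        Nat.card_eq_fintype_card, FiniteField.pow_card_sub_one_eq_one c c0, map_one, Units.val_one])
    have := pow_gcd_eq_one.2 ⟨hs, h2⟩
    rwa [hc.gcd_eq_one, pow_one] at this
  · rw [Pt, Subgroup.card_map_of_injective mulH_injective, IsCyclic.card_powMonoidHom_ker,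
      Nat.card_units, Nat.gcd_eq_right ht]

end Cfsg.Agent.H51.SgKit
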