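import Cfsg.Agent.H25.UGDefs
import Cfsg.Agent.H34.Tori2

/-! Project UG: elementary facts on the field model of the unitary space of dimension seven. -/

set_option autoImplicit false

namespace Cfsg.Agent.H51.UGKt

open Module Cfsg.Agent.H31 Cfsg.Agent.H77.Sg Cfsg.Agent.H25.UG

universe u

section num
variable {q R t : ℕ}

theorem phi (q2 : 2 ≤ q) (h : q ^ 7 + 1 = R * (q + 1) * t) :
    R * t = (q ^ 5 + q ^ 3 + q) * (q - 1) + 1 := by
  obtain ⟨a, rfl⟩ : ∃ a, q = a + 1 := ⟨q - 1, by omega⟩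
  refine Nat.eq_of_mul_eq_mul_left (show 0 < a + 1 + 1 by omega) ?_
  rw [Nat.add_sub_cancel]
  linear_combination h.symm

theorem phiZ (q2 : 2 ≤ q) (h : q ^ 7 + 1 = R * (q + 1) * t) :
    (R : ℤ) * t = (q ^ 5 + q ^ 3 + q) * (q - 1) + 1 := by
  have := congrArg (Nat.cast : ℕ → ℤ) (phi q2 h)
  push_cast [Nat.cast_sub (show 1 ≤ q by omega)] at this
  exact this

theorem cop7 (q2 : 2 ≤ q) (h : q ^ 7 + 1 = R * (q + 1) * t)
    (hR : (R = 1 ∧ ¬ 7 ∣ q + 1) ∨ (R = 7 ∧ 7 ∣ q + 1)) : t.Coprime 7 := by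
  rcases hR with ⟨rfl, h7⟩ | ⟨rfl, w, hw⟩
  · refine ((Nat.Prime.coprime_iff_not_dvd (by norm_num)).2 fun d => h7 ?_).symm
    have h1 : ((q ^ 7 + 1 : ℕ) : ZMod 7) = 0 :=
      (ZMod.natCast_eq_zero_iff _ _).2 (h ▸ d.mul_left _)
    have h2 : ∀ x : ZMod 7, x ^ 7 = x := by decide
    refine (ZMod.natCast_eq_zero_iff _ _).1 ?_
    push_cast at h1 ⊢
    rwa [h2] at h1
  · have e := phiZ q2 h
    have e' : (q : ℤ) = 7 * w - 1 := by omega
    rw [e'] at e
    refine Nat.isCoprime_iff_coprime.1 ⟨1, 3 * w - 35 * w ^ 2 + 245 * w ^ 3 - 1029 * w ^ 4 +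
      2401 * w ^ 5 - 2401 * w ^ 6, ?_⟩
    push_cast at e ⊢
    linarith

theorem cop1 (q2 : 2 ≤ q) (h : q ^ 7 + 1 = R * (q + 1) * t) (c7 : t.Coprime 7) :
    t.Coprime (q + 1) := by
  refine Nat.Coprime.eq_one_of_dvd (c7.coprime_dvd_left (Nat.gcd_dvd_left t (q + 1))) ?_
  rw [← Int.natCast_dvd_natCast, show ((7 : ℕ) : ℤ) = R * t -
    (q + 1 : ℕ) * (q ^ 5 - 2 * q ^ 4 + 3 * q ^ 3 - 4 * q ^ 2 + 5 * q - 6) by
      push_cast; linear_combination -phiZ q2 h]
  exact dvd_sub ((Int.natCast_dvd_natCast.2 (Nat.gcd_dvd_left _ _)).mul_left _)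
    ((Int.natCast_dvd_natCast.2 (Nat.gcd_dvd_right _ _)).mul_right _)

theorem low (q2 : 2 ≤ q) (h : q ^ 7 + 1 = R * (q + 1) * t) (a : ℕ) (ha : a + 1 ≤ q) :
    ((a + 1) ^ 5 + (a + 1) ^ 3 + (a + 1)) * a + 1 ≤ R * t := by
  rw [phi q2 h]
  have : a ≤ q - 1 := by omega
  gcongr

theorem pr29 (h : q ^ 7 + 1 = R * (q + 1) * t) (c1 : t.Coprime (q + 1)) (l : ℕ) (hl : l.Prime)
    (d : l ∣ t) : 29 ≤ l := by
  have := Fact.mk hl
  have : Fact (Nat.Prime 7) := ⟨by norm_num⟩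
  have h1 : ((q ^ 7 + 1 : ℕ) : ZMod l) = 0 := (ZMod.natCast_eq_zero_iff _ _).2 (h ▸ d.mul_left _)
  push_cast at h1
  have h2 : (-(q : ZMod l)) ^ 7 = 1 := by linear_combination -h1
  have h3 : -(q : ZMod l) ≠ 1 := fun e => hl.one_lt.ne' ((c1.coprime_dvd_left d).eq_one_of_dvd
    ((ZMod.natCast_eq_zero_iff _ _).1 (by push_cast; linear_combination -e)))
  have h4 := ZMod.orderOf_dvd_card_sub_one (a := -(q : ZMod l)) fun e => by simp [e] at h2
  rw [orderOf_eq_prime h2 h3] at h4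
  by_contra! hlt
  have := hl.two_le
  have : l = 8 ∨ l = 15 ∨ l = 22 := by omega
  rcases this with rfl | rfl | rfl <;> norm_num at hl

end num

theorem mem_Rt {K : Type u} [Field K] {m : ℕ} {s : Kˣ} : s ∈ Rt K m ↔ (s : K) ^ m = 1 := by
  rw [← Units.val_pow_eq_pow_val, Units.val_eq_one]
  rfl

theorem kt : KtStmt.{u} := by
  intro E K _ _ _ _ _ σ B q R t h
  have hE := h.st.card
  have hσ := h.st.pow
  have q2 : 2 ≤ q := by
    have := Fintype.one_lt_card (α := E)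
    rw [hE] at this
    by_contra! hq
    interval_cases q <;> simp at this
  obtain ⟨p, hp⟩ := CharP.exists E
  obtain ⟨n, pp, hn⟩ := FiniteField.card E p
  obtain ⟨f, -, hf⟩ := (Nat.dvd_prime_pow pp).1 (hn ▸ hE ▸ dvd_pow_self q two_ne_zero)
  have f0 : 0 < f := Nat.pos_of_ne_zero fun e => by simp [e] at hf; omega
  have hK : CharP K p := charP_of_injective_algebraMap (algebraMap E K).injective p
  have := Fact.mk pp
  have c7 := cop7 q2 h.card h.hR
  have c1 := cop1 q2 h.card c7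
  have q13 : R = 7 → 13 ≤ q := fun e => by
    have h7 : 7 ∣ q + 1 := (h.hR.resolve_left (by omega)).2
    by_contra! hq
    have h6 : p ^ f = 6 := by omega
    have h2 : 2 = p := (Nat.prime_dvd_prime_iff_eq Nat.prime_two pp).1
      (Nat.prime_two.dvd_of_dvd_pow (n := f) (by rw [h6]; norm_num))
    have h3 : 3 = p := (Nat.prime_dvd_prime_iff_eq Nat.prime_three pp).1
      (Nat.prime_three.dvd_of_dvd_pow (n := f) (by rw [h6]; norm_num))
    omega
  have cK : Nat.card K = q ^ 14 := by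
    rw [Module.natCard_eq_pow_finrank (K := E), h.rk, Nat.card_eq_fintype_card, hE, ← pow_mul]
  have cR : ∀ m, m ∣ q ^ 7 + 1 → Nat.card (Rt K m) = m := fun m hm => by
    rw [IsCyclic.card_powMonoidHom_ker, Nat.card_units, cK]
    refine Nat.gcd_eq_right (hm.trans ⟨q ^ 7 - 1, ?_⟩)
    rw [← Nat.sq_sub_sq, ← pow_mul, one_pow]
  have d1 : q + 1 ∣ q ^ 7 + 1 := ⟨R * t, by rw [h.card]; ring⟩
  have d2 : t ∣ q ^ 7 + 1 := h.card ▸ dvd_mul_left _ _
  have le : ∀ m, m ∣ q ^ 7 + 1 → Rt K m ≤ Rt K (q ^ 7 + 1) := fun m ⟨k, hk⟩ s hs =>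
    mem_Rt.2 (by rw [hk, pow_mul, mem_Rt.1 hs, one_pow])
  have inj := (algebraMap E K).injective
  have e7 : ∀ c : E, c ^ q ^ 7 = σ c := fun c => by
    rw [hσ, show q ^ 7 = (q ^ 2) ^ 3 * q by ring, pow_mul, ← hE, FiniteField.pow_card_pow]
  obtain ⟨τ, hτ⟩ : ∃ τ : K ≃+* K, ∀ x, τ x = x ^ q ^ 7 :=
    ⟨iterateFrobeniusEquiv K p (f * 7), fun x => by
      rw [iterateFrobeniusEquiv_def, hf, pow_mul]⟩
  have τE : ∀ c : E, τ (algebraMap E K c) = algebraMap E K (σ c) := fun c => by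
    rw [hτ, ← map_pow, e7]
  have zE : ∀ z ∈ Rt K (q + 1), ∃ c : E, c * σ c = 1 ∧ (z : K) = algebraMap E K c := fun z hz => by
    obtain ⟨c, hc⟩ := (H34.mem_range_of_pow_card (algebraMap E K) z).1 (by
      rw [hE, show q ^ 2 = (q + 1) * (q - 1) + 1 by
        rw [← Nat.sq_sub_sq, one_pow, Nat.sub_add_cancel (Nat.one_le_pow _ _ (by omega))],
        pow_succ, pow_mul, mem_Rt.1 hz, one_pow, one_mul])
    refine ⟨c, inj ?_, hc.symm⟩
    rw [hσ, ← pow_succ', map_pow, hc, mem_Rt.1 hz, map_one]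
  have tE : ∀ s ∈ Rt K (q ^ 7 + 1), ∀ c : E, (s : K) = algebraMap E K c → s ∈ Rt K (q + 1) :=
    fun s hs c e => by
      rw [mem_Rt, e, ← map_pow, pow_succ] at hs ⊢
      rwa [← hσ, ← e7]
  have ne1 : ∀ s : Kˣ, s ≠ 1 → (s : K) - 1 ≠ 0 := fun s h e => h (Units.ext (sub_eq_zero.1 e))
  have kT : ∀ s ∈ Rt K (q ^ 7 + 1), s ≠ 1 → kap s + kap s ^ q ^ 7 = 1 := fun s hs s1 => by
    have e : τ s = (s : K)⁻¹ := eq_inv_of_mul_eq_one_left (by rw [hτ, ← pow_succ, mem_Rt.1 hs])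
    have h1 := ne1 s s1
    have h2 : 1 - (s : K) ≠ 0 := fun e => h1 (by linear_combination -e)
    have h3 := s.ne_zero
    rw [← hτ, kap, map_div₀, map_sub, map_one, e]
    field_simp
    ring
  have kS : ∀ x : K, x + x ^ q ^ 7 = 1 → ∃ s ∈ Rt K (q ^ 7 + 1), s ≠ 1 ∧ kap s = x := fun x hx => by
    rw [← hτ] at hx
    have x0 : x ≠ 0 := by rintro rfl; simp at hx
    have x1 : x - 1 ≠ 0 := fun e => by simp [sub_eq_zero.1 e] at hx
    have e : τ x = 1 - x := by linear_combination hx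
    refine ⟨Units.mk0 (x / (x - 1)) (div_ne_zero x0 x1), mem_Rt.2 ?_, fun e => ?_, ?_⟩
    · rw [pow_succ, ← hτ, Units.val_mk0, map_div₀, map_sub, map_one, e, sub_sub_cancel_left]
      field_simp
      ring
    · have := (div_eq_one_iff_eq x1).1 (congrArg Units.val e)
      exact one_ne_zero (α := K) (by linear_combination this)
    · rw [kap, Units.val_mk0, div_sub_one x1, sub_sub_cancel, div_div_div_cancel_right₀ x1, div_one]
  have kZ : ∀ s ∈ Rt K (q ^ 7 + 1), s ≠ 1 →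
      (s ∈ Rt K (q + 1) ↔ ∃ c : E, kap s = algebraMap E K c) := fun s hs s1 => by
    refine ⟨fun hz => ?_, fun ⟨c, hc⟩ => tE s hs (c / (c - 1)) ?_⟩
    · obtain ⟨c, -, hc⟩ := zE s hz
      exact ⟨c / (c - 1), by rw [kap, hc, map_div₀, map_sub, map_one]⟩
    · have h1 := ne1 s s1
      rw [map_div₀, map_sub, map_one, ← hc, kap, div_sub_one h1, sub_sub_cancel,
        div_div_div_cancel_right₀ h1, div_one]
  have l1 := low q2 h.card 1 q2
  refine
    { h with
      pp := ⟨p, f, pp, hp, hK, f0, hf⟩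
      q2 := q2
      copq := Nat.isCoprime_iff_coprime.1
        ⟨R, -((q ^ 4 + q ^ 2 + 1) * (q - 1)), by linear_combination phiZ q2 h.card⟩
      cop1 := c1
      cop2 := ?_
      cop7 := c7
      t43 := ?_
      big := fun q3 => ?_
      q13 := q13
      two := fun e => ?_
      pr29 := pr29 h.card c1
      cardK := cK
      cardZ := cR _ d1
      cardP := cR _ d2
      cardT := cR _ dvd_rfl
      cardPt := (Subgroup.card_map_of_injective mulH_injective).trans (cR _ d2)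
      cardCh := (CommGroup.card_monoidHom_of_hasEnoughRootsOfUnity _ ℂ).trans (cR _ d1)
      cardS := card_trace_eq hE hσ (map_zero σ)
      ZT := le _ d1
      PT := le _ d2
      ZP := fun s h1 h2 => (pow_eq_one_iff_of_coprime c1).1 ⟨h2, h1⟩
      zE := zE
      Ez := fun c hc => ⟨Units.mk0 _ ((map_ne_zero (algebraMap E K)).2
        (left_ne_zero_of_mul_eq_one hc)), mem_Rt.2 (by
          rw [Units.val_mk0, ← map_pow, pow_succ', ← hσ, hc, map_one]), rfl⟩
      tE := tE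
      iso := fun s => ⟨fun hs => mem_Rt.2 ?_, fun hs x y => ?_⟩
      bar := ⟨τ, hτ, fun x => ?_, τE⟩
      kapT := kT
      kapI := fun s s' s1 s2 e => Units.ext ?_
      kapS := kS
      kapZ := kZ
      trn := fun s hs hz c hc => ?_ }
  · rw [← one_pow 2, Nat.sq_sub_sq]
    refine c1.mul_right (Nat.isCoprime_iff_coprime.1 ⟨R, -(q ^ 5 + q ^ 3 + q), ?_⟩)
    rw [Nat.cast_sub (by omega)]
    push_cast
    linear_combination phiZ q2 h.card
  · rcases h.hR with ⟨e, -⟩ | ⟨e, -⟩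
    · rw [e] at l1
      omega
    · have := low q2 h.card 12 (q13 e)
      rw [e] at this
      omega
  · rcases h.hR with ⟨e, -⟩ | ⟨e, -⟩
    · have := low q2 h.card 2 q3
      rw [e] at this ⊢
      omega
    · have := low q2 h.card 12 (q13 e)
      rw [e] at this ⊢
      omega
  · have h1 := h.card
    rcases h.hR with ⟨e', -⟩ | ⟨-, e'⟩
    · rw [e, e'] at h1
      omega
    · omega
  · refine sub_eq_zero.1 ((traceForm_nondegenerate E K).1 _ fun y => ?_)
    have := hs 1 y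
    rw [h.form, h.form, mulH_apply, mulH_apply, mul_one, one_pow, ← mul_assoc, ← pow_succ] at this
    rw [Algebra.traceForm_apply, sub_mul, map_sub, this, sub_self]
  · rw [h.form, h.form, mulH_apply, mulH_apply, mul_pow, mul_mul_mul_comm, ← pow_succ, mem_Rt.1 hs,
      one_mul]
  · have := Fintype.ofFinite K
    rw [hτ, hτ, ← pow_mul, ← pow_add, ← cK, Nat.card_eq_fintype_card, FiniteField.pow_card]
  · rw [kap, kap, div_eq_div_iff (ne1 s s1) (ne1 s' s2)] at e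
    linear_combination -e
  · have s1 : s ≠ 1 := fun e => hz (e ▸ one_mem _)
    obtain ⟨s', h1, h2, h3⟩ := kS (kap s + algebraMap E K c) (by
      have := congrArg (algebraMap E K) hc
      rw [map_add, map_zero] at this
      rw [← hτ, map_add, τE, hτ]
      linear_combination kT s hs s1 + this)
    refine ⟨s', h1, fun h4 => hz ((kZ s hs s1).2 ?_), h3⟩
    obtain ⟨c', hc'⟩ := (kZ s' h1 h2).1 h4
    exact ⟨c' - c, by rw [map_sub, ← hc', h3, add_sub_cancel_right]⟩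

end Cfsg.Agent.H51.UGKt
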