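import Cfsg.Agent.H51.UGKt

/-! Project UG: numbers not dividing the order of the unitary group of dimension seven. -/

set_option autoImplicit false
set_option synthInstance.maxSize 10000

namespace Cfsg.Agent.H51.UGNum7

open Cfsg.Agent.H31 Cfsg.Agent.H25.UG Cfsg.Agent.H51.UGKt

/-- `r` lies in the ideal generated by `n` and `a` -/
def Bz (n a r : ℤ) : Prop := ∃ x y, r = x * n + y * a

theorem Bz.mul {n a b r s : ℤ} (h : Bz n a r) (h' : Bz n b s) : Bz n (a * b) (r * s) := by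
  obtain ⟨x, y, rfl⟩ := h
  obtain ⟨x', y', rfl⟩ := h'
  exact ⟨x * x' * n + x * y' * b + y * a * x', y * y', by ring⟩

theorem Bz.pow {n a r : ℤ} (h : Bz n a r) : ∀ k : ℕ, Bz n (a ^ k) (r ^ k)
  | 0 => ⟨0, 1, by simp⟩
  | k + 1 => by rw [pow_succ, pow_succ]; exact (h.pow k).mul h

theorem Bz.dvd {n a r c : ℤ} (h : Bz n a r) (d : n ∣ c * a) : n ∣ c * r := by
  obtain ⟨x, y, rfl⟩ := h
  rw [mul_add, mul_left_comm c y]
  exact dvd_add ((dvd_mul_left n x).mul_left c) (d.mul_left y)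

theorem ordZ {q : ℕ} (hq : 1 ≤ q) : (ordGU q 7 : ℤ) = q ^ 21 * ((q - 1) * (q ^ 2 + q + 1) *
    (q ^ 2 - q + 1) * ((q - 1) * (q ^ 2 - q + 1)) * (q - 1) * (q + 1) ^ 7 * (q ^ 2 + 1) *
    (q ^ 4 - q ^ 3 + q ^ 2 - q + 1) * ((q ^ 5 + q ^ 3 + q) * (q - 1) + 1)) := by
  have h : ∀ k, ((q ^ k - 1 : ℕ) : ℤ) = q ^ k - 1 := fun k => by
    rw [Nat.cast_sub (Nat.one_le_pow _ _ hq)]
    simp
  simp +decide only [ordGU, Finset.prod_range_succ, Finset.prod_range_zero, if_true, if_false,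
    Nat.cast_mul, Nat.cast_add, h, Nat.cast_pow, Nat.cast_one]
  ring

/-- the product of the resultants -/
def KK (m c r s : ℕ) : ℕ := r * (r * r * r * s ^ 7 * (m ^ 2 + 49 * c ^ 2) *
  (r ^ 4 + r ^ 3 * m + r ^ 2 * m ^ 2 + r * m ^ 3 + m ^ 4) * (7 * c))

theorem bound {q t m c r s N : ℕ} (pp : IsPrimePow q) (hq : 13 < q)
    (h : q ^ 7 + 1 = 7 * (q + 1) * t) (hr : m + r = 7 * c) (r0 : 0 < r) (r1 : r ≤ 13)
    (hN : (N : ℤ) ∣ m * t - c) (hs : Bz N (q + 1) s) (d : N ∣ ordGU q 7) : N ∣ KK m c r s := by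
  have e := phiZ (by omega) h
  obtain ⟨k, hk⟩ := hN
  have hr' : (r : ℤ) = 7 * c - m := by omega
  push_cast at e
  have e1 : (r : ℤ) = -7 * k * N + m * (q * ((q - 1) * (q ^ 2 + q + 1) * (q ^ 2 - q + 1))) := by
    linear_combination hr' - 7 * hk + m * e
  have b1 : Bz N ((q - 1) * (q ^ 2 + q + 1) * (q ^ 2 - q + 1)) r :=
    ⟨-7 * k, m * q, by rw [e1]; ring⟩
  have b2 : Bz N ((q - 1) * (q ^ 2 - q + 1)) r := ⟨-7 * k, m * q * (q ^ 2 + q + 1), by rw [e1]; ring⟩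
  have b3 : Bz N (q - 1) r := ⟨-7 * k, m * q * (q ^ 2 + q + 1) * (q ^ 2 - q + 1), by rw [e1]; ring⟩
  have b4 : Bz N (q ^ 2 + 1) (m ^ 2 + 49 * c ^ 2) :=
    ⟨7 * k * (m * q - 7 * c), m ^ 2 - m * (q ^ 4 - q ^ 3 + 1) * (m * q - 7 * c), by
      linear_combination (m * q - 7 * c) * (7 * hk - m * e)⟩
  have b5 : Bz N (q ^ 4 - q ^ 3 + q ^ 2 - q + 1)
      (r ^ 4 + r ^ 3 * m + r ^ 2 * m ^ 2 + r * m ^ 3 + m ^ 4) := by
    have e2 : (r : ℤ) + m * q = -7 * k * N + m * q ^ 2 * (q ^ 4 - q ^ 3 + q ^ 2 - q + 1) := by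
      rw [e1]; ring
    obtain ⟨z, hz⟩ : ∃ z : ℤ, r ^ 4 + r ^ 3 * m + r ^ 2 * m ^ 2 + r * m ^ 3 + m ^ 4 =
        (r + m * q) * z + m ^ 4 * (q ^ 4 - q ^ 3 + q ^ 2 - q + 1) :=
      ⟨r ^ 3 - r ^ 2 * (m * q) + r * (m * q) ^ 2 - (m * q) ^ 3 +
        m * (r ^ 2 - r * (m * q) + (m * q) ^ 2) + m ^ 2 * (r - m * q) + m ^ 3, by ring⟩
    exact ⟨-7 * k * z, m * q ^ 2 * z + m ^ 4, by rw [hz, e2]; ring⟩
  have b6 : Bz N ((q ^ 5 + q ^ 3 + q) * (q - 1) + 1) (7 * c) :=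
    ⟨-7 * k, m, by linear_combination -7 * hk + m * e⟩
  have d1 := ((((((b1.mul b2).mul b3).mul (hs.pow 7)).mul b4).mul b5).mul b6).dvd
    (ordZ (by omega : 1 ≤ q) ▸ Int.natCast_dvd_natCast.2 d)
  have d2 : N ∣ q ^ 21 * (r * r * r * s ^ 7 * (m ^ 2 + 49 * c ^ 2) *
      (r ^ 4 + r ^ 3 * m + r ^ 2 * m ^ 2 + r * m ^ 3 + m ^ 4) * (7 * c)) := by exact_mod_cast d1
  refine (Nat.dvd_gcd_mul_iff_dvd_mul.2 d2).trans (Nat.mul_dvd_mul_right ?_ _)
  have key : ∀ g : ℕ, g ∣ N → g ∣ q → g ∣ r := fun g h1 h2 => by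
    rw [← Int.natCast_dvd_natCast] at h1 h2 ⊢
    rw [e1]
    exact dvd_add (h1.mul_left _) ((h2.mul_right _).mul_left _)
  obtain ⟨p, f, hp, -, rfl⟩ := (isPrimePow_nat_iff _).1 pp
  obtain ⟨j, -, hj⟩ := (Nat.dvd_prime_pow hp).1
    ((Nat.gcd_dvd_right N ((p ^ f) ^ 21)).trans (pow_mul p f 21).symm.dvd)
  rcases le_total f j with l | l
  · exact absurd (Nat.le_of_dvd r0 (key _ (((pow_dvd_pow p l).trans hj.symm.dvd).trans
      (Nat.gcd_dvd_left _ _)) dvd_rfl)) (by omega)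
  · exact key _ (Nat.gcd_dvd_left _ _) (hj.dvd.trans (pow_dvd_pow p l))

/-- the order of the torus -/
def tt (w : ℕ) : ℕ := ((7 * w - 1) ^ 7 + 1) / (7 * (7 * w - 1 + 1))

theorem chk1 : ∀ w < 300, 3 ≤ w → ∀ m < 8, ∀ c < 3, 1 ≤ m → 1 ≤ c → m ≠ c → ¬ (m = 7 ∧ c = 1) →
    ¬ m * tt w - c ∣ KK m c (7 * c - m) (m - c + (c - m)) := by decide +kernel

theorem chk2 : ∀ w < 300, 3 ≤ w → ¬ (tt w - 1) / (7 * w) ∣ KK 1 1 6 3 := by decide +kernel

theorem chk3 : ∀ m < 8, ∀ c < 3, 1 ≤ m → 1 ≤ c → m ≠ c → ¬ (m = 7 ∧ c = 1) →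
    0 < KK m c (7 * c - m) (m - c + (c - m)) ∧ KK m c (7 * c - m) (m - c + (c - m)) < 10 ^ 19 := by
  decide +kernel

theorem chk4 : ∀ m < 8, ∀ c < 3, 1 ≤ m → 1 ≤ c → ¬ (m = 7 ∧ c = 1) →
    ¬ m * 640291 - c ∣ ordGU 13 7 := by decide +kernel

theorem num7 : Num7Stmt := by
  intro q t m c pp q13 ⟨w, hw⟩ h m1 m7 hc hmc d
  rcases q13.eq_or_lt with rfl | hq
  · obtain rfl : t = 640291 := by omega
    exact chk4 m (by omega) c (by omega) m1 (by omega) hmc d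
  have e := phiZ (by omega) h
  have l0 := low (by omega) h 1 (by omega)
  have qw : q = 7 * w - 1 := by omega
  have ht : tt w = t := by rw [tt, ← qw, h, Nat.mul_div_cancel_left _ (by omega)]
  have e' : (q : ℤ) = 7 * w - 1 := by omega
  have eg : (t : ℤ) = 1 + (q + 1) * (-3 + (q + 1) * (5 - 5 * (7 * w) + 3 * (7 * w) ^ 2 -
      (7 * w) ^ 3 + (7 * w) ^ 3 * w)) := by
    rw [e'] at e ⊢
    push_cast at e
    linarith
  by_cases mc : m = c
  · subst mc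
    obtain ⟨g, hg⟩ : q + 1 ∣ t - 1 := by
      rw [← Int.natCast_dvd_natCast, Nat.cast_sub (by omega), eg]
      simp
    have hg' : (t : ℤ) = 1 + (q + 1) * g := by
      have := congrArg (Nat.cast : ℕ → ℤ) hg
      push_cast [Nat.cast_sub (show 1 ≤ t by omega)] at this
      linarith
    have q0 : (q : ℤ) + 1 ≠ 0 := by omega
    have e3 := mul_left_cancel₀ q0 (add_left_cancel (hg'.symm.trans eg))
    have d1 := bound (m := 1) (c := 1) (r := 6) (s := 3) (N := g) pp hq h rfl (by norm_num)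
      (by norm_num) ⟨q + 1, by push_cast; linear_combination hg'⟩
      ⟨-1, 5 - 5 * (7 * w) + 3 * (7 * w) ^ 2 - (7 * w) ^ 3 + (7 * w) ^ 3 * w, by
        push_cast; linear_combination e3⟩
      (Dvd.dvd.trans ⟨m * (q + 1), by rw [← Nat.mul_sub_one, hg]; ring⟩ d)
    by_cases lw : w < 300
    · exact chk2 w lw (by omega) (by rwa [ht, hg, hw, Nat.mul_div_cancel_left _ (by omega)])
    have l1 : (g : ℤ) ≤ KK 1 1 6 3 := by exact_mod_cast Nat.le_of_dvd (by decide) d1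
    have e4 : 7 * (g : ℤ) = q ^ 4 * (q - 2) + q ^ 2 * (3 * q - 4) + (5 * q - 6) :=
      mul_left_cancel₀ q0 (by push_cast at e; linear_combination e - 7 * hg')
    have l2 : (2099 : ℤ) ≤ q := by omega
    have l3 : (2099 : ℤ) ^ 4 * (2099 - 2) ≤ q ^ 4 * (q - 2) := by gcongr
    have l4 : (0 : ℤ) ≤ q ^ 2 * (3 * q - 4) := mul_nonneg (by positivity) (by omega)
    norm_num [KK] at l1
    omega
  have l3 : t ≤ m * t := Nat.le_mul_of_pos_left _ m1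
  have ct : c ≤ m * t := by omega
  have d1 := bound (m := m) (c := c) (r := 7 * c - m) (s := m - c + (c - m)) pp hq h (by omega)
    (by omega) (by omega) (by rw [Nat.cast_sub ct, Nat.cast_mul]) ?_ d
  · by_cases lw : w < 300
    · exact chk1 w lw (by omega) m (by omega) c (by omega) m1 (by omega) mc hmc (ht ▸ d1)
    obtain ⟨k0, k1⟩ := chk3 m (by omega) c (by omega) m1 (by omega) mc hmc
    have l1 := (Nat.le_of_dvd k0 d1).trans_lt k1
    have l2 := low (by omega) h 2098 (by omega)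
    omega
  · rw [Nat.cast_sub ct, Nat.cast_mul]
    generalize (-3 + ((q : ℤ) + 1) * _) = g at eg
    rcases le_total m c with l | l
    · exact ⟨-1, m * g, by
        rw [show ((m - c + (c - m) : ℕ) : ℤ) = c - m by omega]; linear_combination m * eg⟩
    · exact ⟨1, -(m * g), by
        rw [show ((m - c + (c - m) : ℕ) : ℤ) = m - c by omega]; linear_combination -m * eg⟩

end Cfsg.Agent.H51.UGNum7
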