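import Mathlib
import Cfsg.Agent.H41.S6Kit2

/-! Project SP6: the pieces `Z0Stmt` and `ZFStmt`. -/

set_option autoImplicit false
set_option maxRecDepth 100000
set_option linter.unusedSectionVars false

namespace Cfsg.Agent.H51.S6Z

open Cfsg Subgroup
open Cfsg.Agent.H44 Cfsg.Agent.H55.Sp6 Cfsg.Agent.H2.L3E Cfsg.Agent.H41.S6

universe u

theorem V0_le {K : Subgroup Sp} (h1 : g 1 ∈ K) (h2 : a12 ∈ K) (h4 : a13 ∈ K) (h16 : r12 ∈ K)
    (h32 : r13 ∈ K) : V0 ≤ K := by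
  let P : ℕ → Prop := fun v => v < 64 ∧ bf 1 v = 0 ∧ sg 1 v ∈ K
  have b : ∀ u < 64, ∀ v < 64, bf 1 u = 0 → bf 1 v = 0 → bf 1 (u ^^^ v) = 0 := by decide +kernel
  have x : ∀ u v, P u → P v → P (u ^^^ v) := fun u v hu hv =>
    ⟨xor_lt hu.1 hv.1, b u hu.1 v hv.1 hu.2.1 hv.2.1, by
      have := mul_mem hu.2.2 hv.2.2
      rwa [sg_mul hu.1 hv.1 hu.2.1 hv.2.1, mul_mem_cancel_right (pow_mem h1 _)] at this⟩
  have e0 : sg 1 0 = 1 := weq (l' := []) (by decide +kernel)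
  have e1 : sg 1 1 = 1 := weq (l' := []) (by decide +kernel)
  have p0 : P 0 := ⟨by decide, by decide, e0 ▸ one_mem K⟩
  have i : ∀ (p : Prop) [Decidable p] (c : ℕ), P c → P (if p then c else 0) := fun p _ c hc => by
    split_ifs
    exacts [hc, p0]
  have a : ∀ v < 64, bf 1 v = 0 → ap 1 2 4 0 16 32 v = v := by decide +kernel
  have all : ∀ v < 64, bf 1 v = 0 → sg 1 v ∈ K := fun v hv hb => by
    rw [← a v hv hb]
    exact (x _ _ (i _ _ ⟨by decide, by decide, e1 ▸ one_mem K⟩) (x _ _ (i _ _ ⟨by decide, by decide, h2⟩)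
      (x _ _ (i _ _ ⟨by decide, by decide, h4⟩) (x _ _ (i _ _ p0)
        (x _ _ (i _ _ ⟨by decide, by decide, h16⟩) (i _ _ ⟨by decide, by decide, h32⟩)))))).2.2
  intro y hy
  obtain ⟨v, hv, hb, rfl | rfl⟩ := V0_par hy
  · exact all v hv hb
  · exact mul_mem (all v hv hb) h1

theorem a12_A : a12 ∈ A := Lam_le_A a12_Lam
theorem a13_A : a13 ∈ A := Lam_le_A a13_Lam
theorem a23_A : a23 ∈ A := Lam_le_A a23_Lam
theorem a12_V : a12 ∈ V0 := sg_mem_V0 (by decide) (by decide)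
theorem a13_V : a13 ∈ V0 := sg_mem_V0 (by decide) (by decide)

theorem act_rho : act rho 1 = 1 ∧ act rho 2 = 2 ∧ act rho 4 = 32 ∧ act rho 32 = 36 := by
  refine ⟨?_, ?_, ?_, ?_⟩ <;> exact (act_wd (by decide) (by decide)).trans (by decide)

theorem act_rho2 : act rho2 2 = 16 := (act_wd (by decide) (by decide)).trans (by decide)

theorem act_w23 : act w23 1 = 1 ∧ act w23 2 = 4 ∧ act w23 4 = 2 := by
  refine ⟨?_, ?_, ?_⟩ <;> exact (act_wd (by decide) (by decide)).trans (by decide)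

theorem rho_a13 : rho * a13 * rho⁻¹ = r13 := by
  rw [a13, conj_sg _ (by decide) (by decide), act_rho.1, act_rho.2.2.1, r13]

theorem rho_r13 : rho * r13 * rho⁻¹ = sg 1 36 := by
  rw [r13, conj_sg _ (by decide) (by decide), act_rho.1, act_rho.2.2.2]

theorem prod_b : a13 * r13 * sg 1 36 = g 1 := by
  rw [a13, r13, sg, sg, sg, ← ev_append, ← ev_append, g_eq]
  exact weq (by decide +kernel)

theorem rho_cube : rho ^ 3 = 1 := cube_g (a := 4) (b := 32) (by decide) (by decide) (by decide) ▸ by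
  rw [rho, ev_cons, ← g_eq]

theorem rho2_cube : rho2 ^ 3 = 1 := cube_g (a := 2) (b := 16) (by decide) (by decide) (by decide) ▸ by
  rw [rho2, ev_cons, ← g_eq]

theorem g6_eq : g 6 = g 2 * g 4 * a23 := by
  rw [a23, sg, g_eq 6, g_eq 2, g_eq 4, ← ev_append, ← ev_append]
  exact weq (by decide +kernel)

theorem g2_ne {u : ℕ} (hu : u < 64) : g 2 ≠ g u * a12 := by
  have : ∀ u < 64, cols (wd [2]) ≠ cols (wd [u, 1, 2, 3]) := by decide +kernel
  intro e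
  refine this u hu ((ev_eq_iff (by decide) ?_).1 ?_)
  · simp only [List.mem_cons, List.not_mem_nil, or_false]
    rintro a (rfl | rfl | rfl | rfl) <;> omega
  · rw [← g_eq, e, ev_cons g u]; rfl

theorem two_of {c v : ℕ} (hc : c = 16 ∨ c = 32) (hv : v < 64) (h : g c * g v ∈ V0) :
    v = c ∨ v = c + 1 := by
  have k : ∀ c ∈ [16, 32], ∀ v < 64, (∀ x < 64, lw (wd [c, v] x) = lw x) → v = c ∨ v = c + 1 := by
    decide +kernel
  refine k c (by simpa using hc) v hv fun x hx => ?_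
  rw [← act_wd (by
    simp only [List.mem_cons, List.not_mem_nil, or_false]
    rintro a (rfl | rfl) <;> omega) hx, ev_cons, ← g_eq]
  exact h x hx

theorem exists_fix {v w : ℕ} (hv : v = 16 ∨ v = 17) (hw : w = 32 ∨ w = 33) :
    ∃ a ∈ V0, a ∈ A ∧ act a v = 16 ∧ act a w = 32 := by
  have e : a12 * a13 = ev g [1, 2, 3, 1, 4, 5] := (ev_append g [1, 2, 3] [1, 4, 5]).symm
  rcases hv with rfl | rfl <;> rcases hw with rfl | rfl
  · exact ⟨1, one_mem _, one_mem _, act_one (by decide), act_one (by decide)⟩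
  · exact ⟨a13, a13_V, a13_A, (act_wd (by decide) (by decide)).trans (by decide),
      (act_wd (by decide) (by decide)).trans (by decide)⟩
  · exact ⟨a12, a12_V, a12_A, (act_wd (by decide) (by decide)).trans (by decide),
      (act_wd (by decide) (by decide)).trans (by decide)⟩
  · refine ⟨a12 * a13, mul_mem a12_V a13_V, mul_mem a12_A a13_A, ?_, ?_⟩ <;> rw [e] <;>
      exact (act_wd (by decide) (by decide)).trans (by decide)

variable {G : Type u} [Group G] {ι : Sp →* G} {t : G}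

/-- the elements of `Sp` whose images commute with `y` -/
def cz (ι : Sp →* G) (y : G) : Subgroup Sp := (centralizer ({y} : Set G)).comap ι

theorem mem_cz {y : G} {l : Sp} : l ∈ cz ι y ↔ y * ι l = ι l * y := by
  rw [cz, mem_comap, mem_centralizer_singleton_iff, eq_comm]

theorem cz_mul {y z : G} {l : Sp} (hy : l ∈ cz ι y) (hz : l ∈ cz ι z) : l ∈ cz ι (y * z) := by
  rw [mem_cz] at *
  rw [mul_assoc, hz, ← mul_assoc, hy, mul_assoc]

theorem cz_inv {y : G} {l : Sp} (hy : l ∈ cz ι y) : l ∈ cz ι y⁻¹ :=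
  mem_cz.2 (Commute.inv_left (mem_cz.1 hy)).eq

theorem cz_conj {y : G} {l : Sp} (hy : l ∈ cz ι y) (p : Sp) :
    p * l * p⁻¹ ∈ cz ι (ι p * y * (ι p)⁻¹) := by
  rw [mem_cz] at *
  rw [map_mul, map_mul, map_inv, conj_mul, conj_mul, hy]

/-- `y` centralises `V0` and has translation `γ` -/
structure Xc (ι : Sp →* G) (t y : G) (γ : Sp) : Prop where
  c : V0 ≤ cz ι y
  tr : y * t * y⁻¹ = t * ι γ

theorem Xc.mul {y z : G} {γ δ : Sp} (hy : Xc ι t y γ) (hz : Xc ι t z δ) (hδ : δ ∈ V0) :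
    Xc ι t (y * z) (γ * δ) :=
  ⟨fun _ hv => cz_mul (hy.c hv) (hz.c hv), by
    rw [show y * z * t * (y * z)⁻¹ = y * (z * t * z⁻¹) * y⁻¹ by group, hz.tr, map_mul,
      ← mul_assoc t, ← hy.tr, mul_assoc y, mul_assoc y, mul_assoc y, mul_assoc t,
      mul_assoc t, (Commute.inv_left (mem_cz.1 (hy.c hδ))).eq]⟩

theorem Xc.conj (h : Hy ι t) {y : G} {γ : Sp} (hy : Xc ι t y γ) {p : Sp} (hp : p ∈ P1) :
    Xc ι t (ι p * y * (ι p)⁻¹) (p * γ * p⁻¹) :=
  ⟨fun v hv => by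
    have := cz_conj (hy.c (conj_mem_V0 (mem_P1.1 (inv_mem hp)) hv)) p
    rwa [show p * (p⁻¹ * v * p⁻¹⁻¹) * p⁻¹ = v by group] at this, by
    rw [← h.conj_tl, ← hy.tr]
    conv_lhs => rw [← h.conj_t p]
    group⟩

theorem Xc.diff (h : Hy ι t) {y z : G} {γ : Sp} (hy : Xc ι t y γ) (hz : Xc ι t z γ) (hγ : γ ∈ V0) :
    y * z⁻¹ ∈ E1 ι t := by
  refine h.cen_E1 ?_ fun a ha => mem_cz.1 (cz_mul (hy.c ha) (cz_inv (hz.c ha)))
  have cy := mem_cz.1 (hy.c hγ)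
  have cz := mem_cz.1 (hz.c hγ)
  have e1 : y * t = t * y * ι γ := by rw [mul_assoc, cy, ← mul_assoc, ← hy.tr]; group
  have e2 : z * t = t * z * ι γ := by rw [mul_assoc, cz, ← mul_assoc, ← hz.tr]; group
  have e3 : z⁻¹ * t = t * (ι γ)⁻¹ * z⁻¹ := by
    rw [inv_mul_eq_iff_eq_mul, ← mul_assoc, ← mul_assoc, e2]; group
  rw [mul_assoc, e3, ← mul_assoc, ← mul_assoc, e1]; group

theorem z0 : Z0Stmt.{u} := by
  intro _ G _ _ ι t h s x k hs hx
  cases k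
  · rfl
  exfalso
  have sA : A ≤ cz ι s := fun a ha => mem_cz.2 (hs.cA a ha)
  have sr : rho ∈ cz ι s := mem_cz.2 hs.cr
  have s0 : Xc ι t s a12 := ⟨V0_le (sA (g_mem_A (by decide))) (sA a12_A) (sA a13_A)
    (mem_cz.2 (mul_inv_eq_iff_eq_mul.1 hs.r))
    (rho_a13 ▸ mul_mem (mul_mem sr (sA a13_A)) (inv_mem sr)), hs.tr⟩
  have s1 := s0.conj h w23_P1
  rw [a12, conj_sg _ (by decide) (by decide), act_w23.1, act_w23.2.1, ← a13] at s1
  have c1 := cz_conj (sA (g_mem_A (u := 4) (by decide))) w23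
  rw [conj_g, act_w23.2.2] at c1
  have s2 := s1.conj h rho_P1
  have c2 := cz_conj c1 rho
  rw [rho_a13] at s2
  rw [conj_g, act_rho.2.1] at c2
  have s3 := s2.conj h rho_P1
  have c3 := cz_conj c2 rho
  rw [rho_r13] at s3
  rw [conj_g, act_rho.2.1] at c3
  have z := (s1.mul s2 (sg_mem_V0 (by decide) (by decide))).mul s3 (sg_mem_V0 (by decide) (by decide))
  have cz := mem_cz.1 (cz_mul (cz_mul c1 c2) c3)
  rw [prod_b] at z
  have x0 : Xc ι t x (g 1) := ⟨fun v hv => mem_cz.2 (hx.cV v hv), hx.tr⟩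
  have d := z.diff h x0 g1_mem_V0
  obtain ⟨z', cz, d⟩ : ∃ z' : G, z' * ι (g 2) = ι (g 2) * z' ∧ z' * x⁻¹ ∈ E1 ι t := ⟨_, cz, d⟩
  have b2 : x * ι (g 2) * x⁻¹ = ι (g 2 * a12) := hx.b2
  have e : ι (g 2) = z' * x⁻¹ * ι (g 2 * a12) * (z' * x⁻¹)⁻¹ := by
    rw [← b2, show z' * x⁻¹ * (x * ι (g 2) * x⁻¹) * (z' * x⁻¹)⁻¹ = z' * ι (g 2) * z'⁻¹ by group, cz,
      mul_inv_cancel_right]
  obtain ⟨v, hv, ev⟩ := h.mem_E1.1 d
  have e' : ι (g 2) = ι (v * (g 2 * a12) * v⁻¹) := by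
    rcases ev with ev | ev <;> rw [ev] at e
    · rw [e, map_mul ι _ v⁻¹, map_mul ι v, map_inv]
    · rw [e, show t * ι v * ι (g 2 * a12) * (t * ι v)⁻¹ =
        t * (ι v * ι (g 2 * a12) * (ι v)⁻¹) * t⁻¹ by group, ← map_inv, ← map_mul, ← map_mul, h.ct,
        mul_inv_cancel_right]
  refine g2_ne (act_lt v 2) ((h.inj e').trans ?_)
  rw [← conj_g, ← conj_mul, V0_comm hv a12_V, mul_inv_cancel_right]

theorem step (h : Hy ι t) {x : G} (hx : Xc ι t x (g 1)) {r : Sp} (hr : r ∈ P1) (h3 : r ^ 3 = 1)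
    {a c : ℕ} (ha : g a ∈ cz ι x) (hc : c = 16 ∨ c = 32) (e : act r a = c) :
    ∃ v, (v = c ∨ v = c + 1) ∧ x * ι (g c) * x⁻¹ = ι (g v) := by
  have c1 := mem_cz.1 (hx.c g1_mem_V0)
  have hb : x * ι (g 1) * x⁻¹ = ι (g 1) := mul_inv_eq_iff_eq_mul.2 c1
  have k1 : Commute (x * ι r * x⁻¹) (t * ι (g 1)) := by
    rw [← hx.tr]; exact (Commute.symm (h.ct r)).conj x
  have k2 : Commute (x * ι r * x⁻¹) (ι (g 1)) := by
    rw [← hb]
    refine Commute.conj ?_ x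
    show _ = _
    rw [← map_mul, ← map_mul, P1_comm hr]
  have k3 : Commute (x * ι r * x⁻¹) t := by
    have := k1.mul_right k2.inv_right
    rwa [mul_inv_cancel_right] at this
  obtain ⟨l, hl⟩ := h.cen_cube k3.eq (by rw [conj_pow, ← map_pow, h3, map_one, mul_one, mul_inv_cancel])
  have hv : x * ι (g c) * x⁻¹ = ι (g (act l a)) := by
    rw [← e, ← conj_g, ← conj_g, map_mul, map_mul, map_mul, map_mul, map_inv, map_inv, ← hl]
    conv_rhs => rw [← mul_inv_eq_iff_eq_mul.2 (mem_cz.1 ha)]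
    group
  refine ⟨_, two_of hc (act_lt l a) ?_, hv⟩
  have c64 : c < 64 := by omega
  have cP : g c ∈ P1 := mem_P1.2 ((act_g c64 (by decide)).trans (by rcases hc with rfl | rfl <;> decide))
  have y := hx.conj h cP
  rw [P1_comm cP, mul_inv_cancel_right] at y
  have d := y.diff h hx g1_mem_V0
  rw [← map_inv, g_inv c64, mul_assoc, mul_assoc, ← mul_assoc x, hv, ← map_mul] at d
  obtain ⟨v, hv, ev | ev⟩ := h.mem_E1.1 d
  · exact h.inj ev ▸ hv
  · exact absurd ev (h.ne_t _ _)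

theorem zf : ZFStmt.{u} := by
  intro k G _ _ ι t h x hx
  have x0 : Xc ι t x (g 1) := ⟨fun v hv => mem_cz.2 (hx.cV v hv), hx.tr⟩
  have c2 : g 2 ∈ cz ι x := mem_cz.2 (mul_inv_eq_iff_eq_mul.1 hx.b2)
  have c4 : g 4 ∈ cz ι x := mem_cz.2 (mul_inv_eq_iff_eq_mul.1 hx.b3)
  have c6 : g 6 ∈ cz ι x := g6_eq ▸ mul_mem (mul_mem c2 c4) (mem_cz.2 hx.c23)
  obtain ⟨v, hv, ev⟩ := step h x0 rho2_P1 rho2_cube c2 (Or.inl rfl) act_rho2
  obtain ⟨w, hw, ew⟩ := step h x0 rho_P1 rho_cube c4 (Or.inr rfl) act_rho.2.2.1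
  obtain ⟨a, aV, aA, av, aw⟩ := exists_fix hv hw
  have ca : ∀ l, a * l = l * a → l ∈ cz ι (ι a) := fun l e =>
    mem_cz.2 (by rw [← map_mul, ← map_mul, e])
  have cc : ∀ c v, act a v = c → x * ι (g c) * x⁻¹ = ι (g v) → g c ∈ cz ι (ι a * x) := fun c v e1 e2 =>
    mem_cz.2 (mul_inv_eq_iff_eq_mul.1 (by
      rw [show ι a * x * ι (g c) * (ι a * x)⁻¹ = ι a * (x * ι (g c) * x⁻¹) * (ι a)⁻¹ by group, e2,
        ← map_inv, ← map_mul, ← map_mul, conj_g, e1]))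
  refine ⟨ι a * x, ?_, fun l hl => mem_cz.1 ((?_ : _ ≤ cz ι (ι a * x)) (k.d.gen1 l hl))⟩
  · rw [show ι a * x * t * (ι a * x)⁻¹ = ι a * (x * t * x⁻¹) * (ι a)⁻¹ by group, hx.tr, h.conj_tl,
      V0_comm aV g1_mem_V0, mul_inv_cancel_right]
  · refine sup_le (fun y hy => cz_mul (ca y (V0_comm aV hy)) (x0.c hy)) ((closure_le _).2 ?_)
    rintro _ (rfl | rfl | rfl | rfl | rfl)
    · exact cz_mul (ca _ (A_comm aA (g_mem_A (by decide)))) c2
    · exact cz_mul (ca _ (A_comm aA (g_mem_A (by decide)))) c4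
    · exact cz_mul (ca _ (A_comm aA (g_mem_A (by decide)))) c6
    · exact cc 16 v av ev
    · exact cc 32 w aw ew

end Cfsg.Agent.H51.S6Z
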