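import Cfsg.Agent.H17.LPDefs

/-! Project LP: the piece `ModAsm`. -/

set_option autoImplicit false
set_option linter.unusedVariables false

namespace Cfsg.Agent.H51.LpModAsm

open Cfsg Cfsg.Agent.H17.LP Matrix

universe u

section
variable {W : Type u} [AddCommGroup W] [Module F W]

/-- the twist of a representation -/
def tw (ρ : Representation F SL5 W) (θ : SL5 ≃* SL5) : Representation F SL5 W :=
  MonoidHom.comp ρ θ.toMonoidHom

theorem tw_apply (ρ : Representation F SL5 W) (θ : SL5 ≃* SL5) (g : SL5) : tw ρ θ g = ρ (θ g) := rfl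

theorem tw_simp {ρ : Representation F SL5 W} (θ : SL5 ≃* SL5) (h : Simp ρ) : Simp (tw ρ θ) :=
  ⟨h.1, fun S hS => h.2 S fun g w hw => by
    have := hS (θ.symm g) w hw
    rwa [tw_apply, MulEquiv.apply_symm_apply] at this⟩

theorem tw_wt {ρ : Representation F SL5 W} {θ : SL5 ≃* SL5}
    (hθ : ∀ i ∈ [1, 2, 3, 4, 5], ∀ j ∈ [1, 2, 3, 4, 5], θ (X i j) = X (6 - j) (6 - i))
    {v : W} {I : ℕ → Bool} (h : Wt ρ v I) : Wt (tw ρ θ) v (fun i => I (5 - i)) := by
  obtain ⟨h0, h1, h2⟩ := h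
  refine ⟨h0, fun i hi => ?_, fun i hi => ?_⟩
  · simp only [List.mem_cons, List.not_mem_nil, or_false] at hi
    rcases hi with rfl | rfl | rfl | rfl
    · rw [tw_apply, hθ _ (by simp) _ (by simp)]; exact h1 4 (by simp)
    · rw [tw_apply, hθ _ (by simp) _ (by simp)]; exact h1 3 (by simp)
    · rw [tw_apply, hθ _ (by simp) _ (by simp)]; exact h1 2 (by simp)
    · rw [tw_apply, hθ _ (by simp) _ (by simp)]; exact h1 1 (by simp)
  · simp only [List.mem_cons, List.not_mem_nil, or_false] at hi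
    rcases hi with rfl | rfl | rfl | rfl
    · rw [tw_apply, tw_apply, map_mul θ, hθ 1 (by simp) (1 + 1) (by simp), hθ (1 + 1) (by simp) 1 (by simp)]
      exact h2 4 (by simp)
    · rw [tw_apply, tw_apply, map_mul θ, hθ 2 (by simp) (2 + 1) (by simp), hθ (2 + 1) (by simp) 2 (by simp)]
      exact h2 3 (by simp)
    · rw [tw_apply, tw_apply, map_mul θ, hθ 3 (by simp) (3 + 1) (by simp), hθ (3 + 1) (by simp) 3 (by simp)]
      exact h2 2 (by simp)
    · rw [tw_apply, tw_apply, map_mul θ, hθ 4 (by simp) (4 + 1) (by simp), hθ (4 + 1) (by simp) 4 (by simp)]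
      exact h2 1 (by simp)

theorem exm [Finite W] (hU : WtUqStmt.{u}) {ρ : Representation F SL5 W} {v : W} {I : ℕ → Bool}
    (hs : Simp ρ) (hw : Wt ρ v I) {l : List ℕ} (hl : ExMod l)
    (hI : ∀ i ∈ [1, 2, 3, 4], I i = decide (i ∈ l)) : Nat.card W ≠ 1024 := by
  obtain ⟨W', _, _, _, ρ', v', s', w', c'⟩ := hl
  obtain ⟨e, -⟩ := hU W W' ρ ρ' v v' I _ hs s' hw w' hI
  rwa [← Nat.card_congr e.toEquiv]

theorem l2 [Finite W] (hU : WtUqStmt.{u}) (hL : WtL2Stmt) {ρ : Representation F SL5 W}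
    (θ : SL5 ≃* SL5) {v : W} {I : ℕ → Bool} (hs : Simp (tw ρ θ)) (hw : Wt (tw ρ θ) v I)
    (hI : ∀ i ∈ [1, 2, 3, 4], I i = decide (i ∈ [2])) : ∃ e, IsL2 ρ θ e := by
  obtain ⟨W', _, _, _, ρ', v', e0, s', w', h1, h2, h3, h4⟩ := hL
  obtain ⟨e, he⟩ := hU W W' (tw ρ θ) ρ' v v' I _ hs s' hw w' hI
  refine ⟨fun a => e (e0 a), fun a b ha hb => ?_, fun a ha h => ?_, fun w => ?_, fun g a ha => ?_⟩
  · change e _ = e _ + e _
    rw [h1 a b ha hb, map_add]
  · exact h2 a ha (e.map_eq_zero_iff.1 h)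
  · obtain ⟨a, ha, h⟩ := h3 (e.symm w)
    refine ⟨a, ha, ?_⟩
    change e _ = _
    rw [h, LinearEquiv.apply_symm_apply]
  · change ρ (θ g) (e _) = e _
    rw [← h4 g a ha, ← tw_apply, ← he]
    rfl
end

theorem four {P : ℕ → Prop} (h1 : P 1) (h2 : P 2) (h3 : P 3) (h4 : P 4) : ∀ i ∈ [1, 2, 3, 4], P i := by
  intro i hi
  simp only [List.mem_cons, List.not_mem_nil, or_false] at hi
  rcases hi with rfl | rfl | rfl | rfl <;> assumption

theorem modAsm : ModAsm.{u} := by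
  rintro hE hU hB m0 m1 m12 m14 hL ⟨θ, hθ⟩ W _ _ _ ρ hs hc
  obtain ⟨v, I, hw⟩ := hE W ρ hs
  have hs' := tw_simp θ hs
  have hw' := tw_wt hθ hw
  have b1 := hB W ρ v I hw
  have b2 : I 2 = true → (I 4 = true ∨ I 3 = true) → 1024 < Nat.card W := hB W _ v _ hw'
  rw [hc] at b1 b2
  cases h2 : I 2
  · cases h3 : I 3
    · cases h1 : I 1
      · cases h4 : I 4
        · exact absurd hc (exm hU hs hw m0 (four h1 h2 h3 h4))
        · exact absurd hc (exm hU hs' hw' m1 (four h4 h3 h2 h1))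
      · cases h4 : I 4
        · exact absurd hc (exm hU hs hw m1 (four h1 h2 h3 h4))
        · exact absurd hc (exm hU hs hw m14 (four h1 h2 h3 h4))
    · cases h1 : I 1
      · cases h4 : I 4
        · exact ⟨θ, l2 hU hL θ hs' hw' (four h4 h3 h2 h1)⟩
        · exact absurd hc (exm hU hs' hw' m12 (four h4 h3 h2 h1))
      · exact absurd (b1 h3 (Or.inl h1)) (lt_irrefl _)
  · cases h3 : I 3
    · cases h4 : I 4
      · cases h1 : I 1
        · exact ⟨MulEquiv.refl _, l2 hU hL (ρ := ρ) (MulEquiv.refl _) hs hw (four h1 h2 h3 h4)⟩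
        · exact absurd hc (exm hU hs hw m12 (four h1 h2 h3 h4))
      · exact absurd (b2 h2 (Or.inl h4)) (lt_irrefl _)
    · exact absurd (b2 h2 (Or.inr h3)) (lt_irrefl _)

end Cfsg.Agent.H51.LpModAsm
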