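import Cfsg.Agent.H45.OnDefs

/-! Project ON: at most two components at a point meet a given component in a line. -/

set_option autoImplicit false

namespace Cfsg.Agent.H51.OnDg

open Cfsg.Agent.H45.On

universe u v

theorem dg : DgStmt.{u, v} := by
  intro G Ω _ _ _ _ S L K z w W hzw hW
  obtain ⟨M0, g, h0, hg, hgw⟩ : ∃ M0 g, L.Cp z M0 ∧ g ∈ M0 ∧ w ≠ g • w := by
    obtain ⟨U, hU, hz, -⟩ := K.join hzw
    obtain ⟨⟨g, hg⟩, g1⟩ := Subgroup.ne_bot_iff_exists_ne_one.1 (K.ne_bot hU)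
    obtain ⟨w0, hw0⟩ := not_forall.1 fun h => g1 (Subtype.ext (S.faith g h))
    obtain ⟨c, hc, hc'⟩ := S.tr2 z w0 z w (fun e => hw0 (e ▸ K.fx hz g hg)) hzw
    obtain ⟨M0, h0, hle⟩ := hz
    refine ⟨cj c M0, c * g * c⁻¹, hc ▸ K.cp c h0, cj_mem (hle hg), fun e => hw0 ?_⟩
    rw [← hc', mul_smul, mul_smul, inv_smul_smul] at e
    exact (MulAction.injective c e).symm
  have key : ∀ M, L.Cp z M → L.Ln (M ⊓ W) → M ≠ M0 → M ⊓ W = W ⊓ cj g W := fun M hM hL hne =>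
    K.eq_inf hL hW (K.cp g hW) inf_le_right (fun a ha => by
      rw [mem_cj, mul_assoc, S.comm hM.1 h0.1 hne a ha.1 g hg, inv_mul_cancel_left]
      exact ha.2) hgw
  obtain ⟨M1, h1⟩ : ∃ M1, {M | L.Cp z M ∧ L.Ln (M ⊓ W)} ⊆ {M0, M1} := by
    by_cases h : ∃ M, (L.Cp z M ∧ L.Ln (M ⊓ W)) ∧ M ≠ M0
    · obtain ⟨M1, ⟨a, b⟩, c⟩ := h
      refine ⟨M1, fun M hM => (eq_or_ne M M0).imp_right fun hne => ?_⟩
      exact K.eq_at (K.ne_bot b) hM.1.1 a.1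
        (((key M1 a b c).trans (key M hM.1 hM.2 hne).symm).le.trans inf_le_left) inf_le_left
    · exact ⟨M0, fun M hM => .inl (by_contra fun hne => h ⟨M, hM, hne⟩)⟩
  exact (Set.ncard_le_ncard h1).trans ((Set.ncard_insert_le _ _).trans (by simp))

end Cfsg.Agent.H51.OnDg
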