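import Cfsg.Agent.H77.SgDefs2
import Cfsg.Agent.H51.SgKit

/-!
# The valency estimate for invariant relations on points
-/

set_option autoImplicit false

namespace Cfsg.Agent.H51.SgCntP

open Cfsg Module Cfsg.Agent.H77.Sg Projectivization
open scoped LinearAlgebra.Projectivization

universe u v

variable {F : Type u} {K : Type v} [Field F] [AddCommGroup K] [Module F K]

theorem cnt [Finite F] (S : Set K) (h0 : ∀ x ∈ S, x ≠ 0)
    (hs : ∀ x ∈ S, ∀ d : Fˣ, d • x ∈ S) :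
    S.ncard = (Nat.card F - 1) * {p : ℙ F K | p.rep ∈ S}.ncard := by
  rw [← Nat.card_units, ← Nat.card_coe_set_eq, ← Nat.card_coe_set_eq, ← Nat.card_prod]
  refine (Nat.card_eq_of_bijective (fun x : Fˣ × {p : ℙ F K | p.rep ∈ S} =>
    (⟨x.1 • x.2.1.rep, hs _ x.2.2 _⟩ : S)) ⟨?_, ?_⟩).symm
  · rintro ⟨c, p, hp⟩ ⟨c', p', hp'⟩ e
    have e : c • p.rep = c' • p'.rep := congrArg Subtype.val e
    obtain rfl : p = p' := by
      rw [← mk_rep p, ← mk_rep p', mk_eq_mk_iff]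
      exact ⟨c⁻¹ * c', by rw [mul_smul, ← e, inv_smul_smul]⟩
    obtain rfl : c = c' := Units.ext (smul_left_injective F p.rep_nonzero e)
    rfl
  · rintro ⟨x, hx⟩
    obtain ⟨a, ha⟩ := exists_smul_eq_mk_rep F x (h0 x hx)
    exact ⟨⟨a⁻¹, mk F x (h0 x hx), show _ ∈ S from ha ▸ hs x hx a⟩, Subtype.ext (by
      change a⁻¹ • (mk F x _).rep = x
      rw [← ha, inv_smul_smul])⟩

theorem rep_smul {X : Subgroup (K ≃ₗ[F] K)} (g : X) (p : ℙ F K) :
    ∃ a : Fˣ, (g • p).rep = a • g.1 p.rep := by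
  have : g • p = mk F (g • p.rep) ((smul_ne_zero_iff_ne g).2 p.rep_nonzero) :=
    congrArg (g • ·) (mk_rep p).symm
  obtain ⟨a, ha⟩ := exists_smul_eq_mk_rep F (g • p.rep) ((smul_ne_zero_iff_ne g).2 p.rep_nonzero)
  exact ⟨a, by rw [this, ← ha]; rfl⟩

/-- **CNTP** -/
theorem cnt0 (cntV : CntV0.{u, v}) (str : Str0.{u, v}) (uc : Uc0.{u, v}) (small : Small0.{u, v})
    (exc : Exc0.{v}) (spec : SpecStmt.{v, v}) : Cnt0.{u, v} := by
  intro F K _ _ _ _ _ n q t R X c hN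
  refine ⟨cntV F K n q t R X c hN, fun Γ h1 h2 h3 k β hk s hs s1 hβ => ?_⟩
  have kit := SgKit.kit F K (c.hn ▸ c.pn)
  haveI : Finite (K ≃ₗ[F] K) :=
    Finite.of_injective (fun g : K ≃ₗ[F] K => (g : K → K)) DFunLike.coe_injective
  haveI := Fintype.ofFinite X
  haveI := Fintype.ofFinite (ℙ F K)
  have q1 : 0 < q - 1 := by have := c.hq ▸ Finite.one_lt_card (α := F); omega
  have R1 : 1 ≤ R := by
    have := c.n7
    rcases c.hR with h | h <;> omega
  have big := c.big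
  have PX : Pt F K t ≤ X := by
    rintro _ ⟨a, ha, rfl⟩
    exact (c.mem a).2 ⟨1, a, ha, (one_smul _ _).symm⟩
  obtain ⟨U, UP, UC, -, Ue, Uτ⟩ := (uc F K n q t R X c).2 X PX le_rfl
  have cP : Nat.card U.P = t := by
    rw [UP, Nat.card_congr (Subgroup.subgroupOfEquivOfLe PX).toEquiv]
    exact kit.cardP t (by rw [c.card, Nat.add_sub_cancel]; exact dvd_mul_left _ _)
  have cΩ : Nat.card (ℙ F K) = R * t := by
    have := Projectivization.card F K
    rw [c.card, c.hq, Nat.add_sub_cancel, mul_right_comm] at this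
    exact (Nat.eq_of_mul_eq_mul_right q1 this).symm
  have fix : ∀ (g : X) (a : Kˣ), mulH F K a = g → ∀ p : ℙ F K, g • p = p →
      ∃ d : F, (a : K) = d • 1 := fun g a ha p e => by
    obtain ⟨b, hb⟩ := rep_smul g p
    rw [e, ← ha, mulH_apply] at hb
    refine ⟨(b⁻¹ : Fˣ), mul_right_cancel₀ p.rep_nonzero ?_⟩
    rw [smul_mul_assoc, one_mul]
    exact (inv_smul_eq_iff.2 hb).symm
  have sc : ∀ (a b : Fˣ) x y, Γ x y → Γ (a • x) (b • y) := fun a b x y h => by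
    have := h2 _ _ (b * a⁻¹ : Fˣ) (Units.ne_zero _) (h1 (mulH F K (Units.map (algebraMap F K) a))
      ((c.mem _).2 ⟨a, 1, one_pow _, by simp [Algebra.algebraMap_eq_smul_one]⟩) x y h)
    simpa [← Algebra.smul_def, smul_smul, Units.smul_def] using this
  have sc' : ∀ (a b : Fˣ) x y, Γ (a • x) (b • y) ↔ Γ x y := fun a b x y =>
    ⟨fun h => by simpa using sc a⁻¹ b⁻¹ _ _ h, sc a b x y⟩
  let σ : X := ⟨mulH F K s, PX ⟨s, hs, rfl⟩⟩
  refine spec X (ℙ F K) U.P R t k β (fun p p' => Γ p.rep p'.rep)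
    (fun a ha b hb => U.cen a (U.hPC ha) b hb) cP (by omega) ?_ cΩ R1 ?_ ?_ ?_ ?_ ?_ σ
    (UP ▸ ⟨s, hs, rfl⟩) (fun e => s1 (mulH_injective ((congrArg Subtype.val e).trans
      (map_one _).symm))) ?_
  · intro g hg p e
    rw [UP] at hg
    obtain ⟨a, ha, hag⟩ := hg
    obtain ⟨d, hd⟩ := fix g a hag p e
    by_contra hne
    refine kit.ns a t (c.hq ▸ c.cop) ha (fun e => hne (Subtype.ext ?_))
      (Submodule.mem_span_singleton.2 ⟨d, hd.symm⟩)
    rw [e, map_one] at hag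
    exact hag.symm
  · intro p p'
    obtain ⟨g, hg, e⟩ := str F K n q t R X c hN _ _ p.rep_nonzero p'.rep_nonzero
    have : SS X t ≤ (Subgroup.normalClosure (U.P : Set X)).map X.subtype := by
      rw [SS, Subgroup.closure_le]
      rintro _ ⟨g, hg, a, ha, rfl⟩
      exact ⟨_, Subgroup.normalClosure_normal.conj_mem ⟨a, PX ha⟩
        (Subgroup.subset_normalClosure (UP ▸ ha)) ⟨g, hg⟩, rfl⟩
    obtain ⟨g, hg', rfl⟩ := this hg
    refine ⟨g, hg', ?_⟩
    rw [← mk_rep p, ← mk_rep p']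
    exact (mk_eq_mk_iff F _ _ ((smul_ne_zero_iff_ne g).2 p.rep_nonzero) _).2
      ⟨1, (one_smul _ _).trans e.symm⟩
  · refine fun χ => exc X U _ χ (H11.isCharacter_permChar _) (fun a ha => ?_) fun ψ hψ hk => ?_
    · obtain ⟨b, hb⟩ : a.1 ∈ (mulH F K).range.subgroupOf X := UC ▸ a.2
      rw [H11.permChar_apply, Nat.cast_eq_zero, Nat.card_eq_zero]
      refine Or.inl ⟨fun ⟨p, hp⟩ => ha ((Uτ a).2 ?_)⟩
      obtain ⟨d, hd⟩ := fix a b hb p hp
      exact ⟨d, fun x => by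
        rw [← show mulH F K b = a.1.1 from hb, mulH_apply, hd, smul_mul_assoc, one_mul]⟩
    · have h1 := small F K n q t R X c hN ψ hψ (UP ▸ hk)
      have h2 : charDegree (H11.permChar X (ℙ F K)) = R * t := by
        rw [charDegree, H11.permChar_one, cΩ, Complex.natCast_re, Nat.floor_natCast]
      have h3 : R * n ≤ (R * n) ^ 2 := Nat.le_self_pow two_ne_zero _
      obtain ⟨t', rfl⟩ : ∃ t', t = t' + 1 := ⟨t - 1, by omega⟩
      rw [h2, cP, Nat.add_sub_cancel]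
      calc R * (t' + 1) * U.e ≤ R * (t' + 1) * n := Nat.mul_le_mul_left _ Ue
        _ < (R * n + 1) * t' := by nlinarith
        _ ≤ _ := Nat.mul_le_mul_right _ h1
  · intro g p p' h
    obtain ⟨a, ha⟩ := rep_smul g p
    obtain ⟨b, hb⟩ := rep_smul g p'
    simp only [ha, hb]
    exact sc _ _ _ _ (h1 g g.2 _ _ h)
  · exact fun p h => h3 _ _ h (Submodule.mem_span_singleton_self _)
  · intro p
    have := cnt (F := F) {y | Γ p.rep y} (fun y hy e => h3 _ _ hy (e ▸ zero_mem _))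
      fun y hy d => h2 _ _ d d.ne_zero hy
    rw [hk _ p.rep_nonzero, c.hq] at this
    exact (Nat.eq_of_mul_eq_mul_left q1 this).symm
  · have := cnt (F := F) {x | x ≠ 0 ∧ Γ x (s * x)} (fun y hy => hy.1)
      fun y hy d => ⟨(smul_ne_zero_iff_ne d).2 hy.1, by
        rw [mul_smul_comm]; exact sc _ _ _ _ hy.2⟩
    rw [hβ, c.hq] at this
    rw [Nat.eq_of_mul_eq_mul_left q1 this]
    congr 1
    ext p
    obtain ⟨a, ha⟩ := rep_smul σ p
    have e := sc' 1 a p.rep (s * p.rep)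
    rw [one_smul] at e
    simp only [Set.mem_setOf_eq, ha]
    exact ⟨fun h => ⟨p.rep_nonzero, e.1 h⟩, fun h => e.2 h.2⟩

end Cfsg.Agent.H51.SgCntP
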