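import Mathlib
import Cfsg.Agent.H51.Tits1

/-!
The amalgam of the Tits group, part 2: the character `chi : C(z) → (ZMod 5)ˣ`.
-/

set_option autoImplicit false
set_option linter.unusedSectionVars false

namespace Cfsg.Agent.H51.TT

open Cfsg Cfsg.Agent.H98 Cfsg.Agent.H84 Cfsg.Agent.H71.NG Subgroup
open scoped commutatorElement

variable {G : Type*} [Group G] [Finite G]

/-- Congruence modulo `Q_z` inside `C(z)`. -/
def E (z a b : G) : Prop := a ∈ Cz z ∧ b ∈ Cz z ∧ a * b⁻¹ ∈ Qp z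

namespace E

variable {z a b c d : G}

theorem refl (h : a ∈ Cz z) : E z a a := ⟨h, h, by simp⟩

theorem symm (h : E z a b) : E z b a := ⟨h.2.1, h.1, by simpa using inv_mem h.2.2⟩

theorem trans (h : E z a b) (h' : E z b c) : E z a c :=
  ⟨h.1, h'.2.1, by simpa [mul_assoc] using mul_mem h.2.2 h'.2.2⟩

theorem mul (h : E z a b) (h' : E z c d) : E z (a * c) (b * d) :=
  ⟨mul_mem h.1 h'.1, mul_mem h.2.1 h'.2.1, by
    have := mul_mem (Qp_conj h.1 h'.2.2) h.2.2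
    rwa [show a * (c * d⁻¹) * a⁻¹ * (a * b⁻¹) = a * c * (b * d)⁻¹ by group] at this⟩

theorem inv (h : E z a b) : E z a⁻¹ b⁻¹ :=
  ⟨inv_mem h.1, inv_mem h.2.1, by
    have := Qp_conj (inv_mem h.1) (inv_mem h.2.2)
    rwa [show a⁻¹ * (a * b⁻¹)⁻¹ * a⁻¹⁻¹ = a⁻¹ * b⁻¹⁻¹ by group] at this⟩

theorem pow (h : E z a b) (n : ℕ) : E z (a ^ n) (b ^ n) := by
  induction n with
  | zero => simpa using refl (one_mem _)
  | succ n ih => rw [pow_succ, pow_succ]; exact ih.mul h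

theorem P (h : E z a b) (i : ZMod 5) : E z (P a i) (P b i) := h.pow _

theorem conj (h : E z a b) (hc : c ∈ Cz z) : E z (c * a * c⁻¹) (c * b * c⁻¹) :=
  ((refl hc).mul h).mul (refl (inv_mem hc))

theorem of_mem (h : a ∈ Qp z) : E z a 1 := ⟨Qp_le z h, one_mem _, by simpa using h⟩

theorem mem (h : E z a 1) : a ∈ Qp z := by simpa using h.2.2

theorem cj (h : E z a b) (g : G) : E (g * z * g⁻¹) (g * a * g⁻¹) (g * b * g⁻¹) :=
  ⟨conj_mem_Cz g h.1, conj_mem_Cz g h.2.1, by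
    have := conj_mem_Qp g h.2.2
    rwa [show g * (a * b⁻¹) * g⁻¹ = g * a * g⁻¹ * (g * b * g⁻¹)⁻¹ by group] at this⟩

theorem exists_right (h : E z a b) : ∃ q ∈ Qp z, a = b * q :=
  ⟨b⁻¹ * a, by
    have := Qp_conj (inv_mem h.2.1) h.2.2
    rwa [show b⁻¹ * (a * b⁻¹) * b⁻¹⁻¹ = b⁻¹ * a by group] at this, by group⟩

end E

def Chi (z x : G) (k : ZMod 5) : Prop :=
  ∀ f ∈ Cz z, f ^ 5 = 1 → E z (x * f * x⁻¹) (P f k)

/-- The action of `x ∈ C(z)` on the Sylow 5-subgroup of `C(z) / Q_z`. -/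
noncomputable def chi (z x : G) : ZMod 5 := Classical.epsilon (Chi z x)

theorem Chi.cj {z x : G} {k : ZMod 5} (h : Chi z x k) (g : G) :
    Chi (g * z * g⁻¹) (g * x * g⁻¹) k := by
  intro f hf h5
  have h1 : g⁻¹ * f * g ∈ Cz z := by
    have := conj_mem_Cz g⁻¹ hf
    rwa [show g⁻¹ * (g * z * g⁻¹) * g⁻¹⁻¹ = z by group, inv_inv] at this
  have h2 := (h _ h1 (by
    rw [show g⁻¹ * f * g = g⁻¹ * f * g⁻¹⁻¹ by group, conj_pow, h5]; group)).cj g
  rw [← P_conj] at h2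
  convert h2 using 1
  · group
  · congr 1; group

theorem chi_cj (z x g : G) : chi (g * z * g⁻¹) (g * x * g⁻¹) = chi z x := by
  unfold chi
  congr 1
  funext k
  refine propext ⟨fun h => ?_, fun h => h.cj g⟩
  have := h.cj g⁻¹
  convert this using 1 <;> group

theorem chi_cj' {z x g : G} (hg : g ∈ Cz z) : chi z (g * x * g⁻¹) = chi z x := by
  have := chi_cj z x g
  rwa [mem_Cz'.mp hg] at this

namespace Fl

variable {W : Subgroup G} {z : G} (h : Fl W z)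
include h

theorem index_S : ((Sf W z).subgroupOf (Cz z)).index = 5 := by
  have h1 := ((Sf W z).subgroupOf (Cz z)).card_mul_index
  rw [Nat.card_congr (subgroupOfEquivOfLe (inf_le_left : Sf W z ≤ Cz z)).toEquiv, h.idx,
    mul_comm 5] at h1
  exact Nat.eq_of_mul_eq_mul_left Nat.card_pos h1

theorem P_mem_S {f : G} (hf : orderOf f = 5) {i : ZMod 5} (hi : P f i ∈ Sf W z) : i = 0 :=
  P_eq_one hf (h.eq_one_of_five hi (P_five (five_of hf) i))

theorem decomp {f : G} (hC : f ∈ Cz z) (hf : orderOf f = 5) {c : G} (hc : c ∈ Cz z) :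
    ∃ i : ZMod 5, ∃ s ∈ Sf W z, c = P f i * s := by
  let φ : ZMod 5 → (Cz z ⧸ (Sf W z).subgroupOf (Cz z)) := fun i =>
    QuotientGroup.mk ⟨P f i, P_mem hC i⟩
  have hinj : Function.Injective φ := by
    intro i j e
    have h1 := QuotientGroup.eq.mp e
    rw [mem_subgroupOf] at h1
    have h2 : P f (-i + j) ∈ Sf W z := by
      rw [P_add (five_of hf), P_neg (five_of hf)]; exact h1
    have := h.P_mem_S hf h2
    linear_combination -this
  have hbij : Function.Bijective φ := by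
    refine (Nat.bijective_iff_injective_and_card φ).mpr ⟨hinj, ?_⟩
    rw [Nat.card_zmod, ← index_eq_card, h.index_S]
  obtain ⟨i, hi⟩ := hbij.2 (QuotientGroup.mk ⟨c, hc⟩)
  have h1 := QuotientGroup.eq.mp hi
  rw [mem_subgroupOf] at h1
  exact ⟨i, _, h1, by simp⟩

theorem five_mem {f : G} (hC : f ∈ Cz z) (hf : orderOf f = 5) {g : G} (hg : g ∈ Cz z)
    (h5 : g ^ 5 = 1) : ∃ j : ZMod 5, E z g (P f j) := by
  have : Fact (Nat.Prime 5) := ⟨by norm_num⟩
  have : Fact (Nat.Prime 2) := ⟨Nat.prime_two⟩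
  let N := ((Sf W z).subgroupOf (Cz z)).normalCore
  have hNQ : ∀ x : Cz z, x ∈ N → (x : G) ∈ Qp z := fun x hx =>
    h.mem_Q_of_fix x.2 fun c hc => by
      have h1 := hx ⟨c⁻¹, inv_mem hc⟩
      rw [mem_subgroupOf] at h1
      have := conj_mem_cj (g := c) h1.2
      rw [cj_Nm] at this
      convert this using 1
      simp [mul_assoc]
  have d1 : Nat.card (Cz z ⧸ N) ∣ 120 := by
    have : N.index ∣ ((Sf W z).subgroupOf (Cz z)).index.factorial := by
      simp only [N]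
      rw [normalCore_eq_ker, index_ker, index_eq_card, ← Nat.card_perm]
      exact card_subgroup_dvd_card (MulAction.toPermHom _ _).range
    rwa [h.index_S] at this
  obtain ⟨k, hk⟩ := IsPGroup.iff_card.mp h.S2
  have d2 : Nat.card (Cz z ⧸ N) ∣ 5 * 2 ^ k := by
    rw [← hk, ← h.idx]; exact N.index_dvd_card
  have d3 : Nat.card (Cz z ⧸ N) ∣ 40 := by
    have c3 : Nat.Coprime (Nat.card (Cz z ⧸ N)) 3 :=
      Nat.Coprime.coprime_dvd_left d2 (Nat.Coprime.mul_left (by norm_num)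
        (Nat.Coprime.pow_left _ (by norm_num)))
    exact c3.dvd_of_dvd_mul_right (show _ ∣ 40 * 3 from d1)
  let f' : Cz z ⧸ N := QuotientGroup.mk ⟨f, hC⟩
  let g' : Cz z ⧸ N := QuotientGroup.mk ⟨g, hg⟩
  have hf5 : f' ^ 5 = 1 := by
    rw [← QuotientGroup.mk_pow, show (⟨f, hC⟩ : Cz z) ^ 5 = 1 from Subtype.ext (five_of hf)]; rfl
  have hg5 : g' ^ 5 = 1 := by
    rw [← QuotientGroup.mk_pow, show (⟨g, hg⟩ : Cz z) ^ 5 = 1 from Subtype.ext h5]; rfl
  have hf1 : f' ≠ 1 := fun e => by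
    have := h.eq_one_of_five (h.Q_le_S (hNQ _ ((QuotientGroup.eq_one_iff _).mp e))) (five_of hf)
    simp only at this
    rw [this] at hf
    simp at hf
  have hfo : orderOf f' = 5 := orderOf_eq_prime hf5 hf1
  have pz : ∀ y : Cz z ⧸ N, y ^ 5 = 1 → IsPGroup 5 (zpowers y) := fun y hy =>
    IsPGroup.of_card_dvd_pow (n := 1) (by
      rw [Nat.card_zpowers]; simpa using orderOf_dvd_of_pow_eq_one hy)
  obtain ⟨R, hR⟩ := (pz f' hf5).exists_le_sylow
  obtain ⟨R', hR'⟩ := (pz g' hg5).exists_le_sylow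
  have hc5 : 5 ∣ Nat.card R := by
    have := card_dvd_of_le hR
    rwa [Nat.card_zpowers, hfo] at this
  have hRc : Nat.card R = 5 := by
    obtain ⟨m, hm⟩ := IsPGroup.iff_card.mp R.isPGroup'
    have h1 : Nat.card R ∣ 40 := (card_subgroup_dvd_card _).trans d3
    rw [hm] at h1 hc5 ⊢
    have h2 : 5 ^ m ∣ 5 ^ 1 :=
      (Nat.Coprime.pow_left m (by norm_num : Nat.Coprime 5 8)).dvd_of_dvd_mul_left h1
    have h3 := (Nat.pow_dvd_pow_iff_le_right (by norm_num)).mp h2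
    interval_cases m
    · simp at hc5
    · rfl
  have hn : Nat.card (Sylow 5 (Cz z ⧸ N)) = 1 := by
    have h1 := R.card_dvd_index
    have h2 := (R : Subgroup (Cz z ⧸ N)).card_mul_index
    rw [hRc] at h2
    have h3 : (R : Subgroup (Cz z ⧸ N)).index ∣ 8 :=
      Nat.dvd_of_mul_dvd_mul_left (by norm_num : 0 < 5) (h2 ▸ d3)
    have h4 := h1.trans h3
    have h5 := card_sylow_modEq_one 5 (Cz z ⧸ N)
    have h6 := Nat.le_of_dvd (by norm_num) h4
    unfold Nat.ModEq at h5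
    generalize Nat.card (Sylow 5 (Cz z ⧸ N)) = n at *
    interval_cases n <;> omega
  have hsub := (Nat.card_eq_one_iff_unique.mp hn).1
  have hRR : R' = R := Subsingleton.elim _ _
  have hReq : zpowers f' = R :=
    eq_of_le_of_card_ge hR (by rw [hRc, Nat.card_zpowers, hfo])
  have hmem : g' ∈ zpowers f' := hReq ▸ hRR ▸ hR' (mem_zpowers _)
  obtain ⟨n, hn'⟩ := (mem_powers_iff_mem_zpowers.mpr hmem : g' ∈ Submonoid.powers f')
  refine ⟨n, E.symm ⟨P_mem hC _, hg, ?_⟩⟩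
  rw [P_natCast (five_of hf)]
  have e : (QuotientGroup.mk (⟨f, hC⟩ ^ n * ⟨g, hg⟩⁻¹) : Cz z ⧸ N) = 1 := by
    rw [QuotientGroup.mk_mul, QuotientGroup.mk_inv, QuotientGroup.mk_pow]
    exact mul_inv_eq_one.mpr hn'
  exact hNQ _ ((QuotientGroup.eq_one_iff _).mp e)

theorem P_inj {f : G} (hf : orderOf f = 5) {i j : ZMod 5} (e : E z (P f i) (P f j)) : i = j := by
  have h2 : P f (i + -j) ∈ Sf W z := by
    rw [P_add (five_of hf), P_neg (five_of hf)]; exact h.Q_le_S e.2.2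
  have := h.P_mem_S hf h2
  linear_combination this

theorem Chi_of {f x : G} (hC : f ∈ Cz z) (hf : orderOf f = 5) (hx : x ∈ Cz z) {k : ZMod 5}
    (e : E z (x * f * x⁻¹) (P f k)) : Chi z x k := by
  intro g hg h5
  obtain ⟨j, hj⟩ := h.five_mem hC hf hg h5
  refine (hj.conj hx).trans ?_
  rw [← P_conj]
  refine (e.P j).trans ?_
  rw [← P_mul (five_of hf), mul_comm, P_mul (five_of hf)]
  exact (hj.P k).symm

theorem chi_spec {x : G} (hx : x ∈ Cz z) : Chi z x (chi z x) := by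
  refine Classical.epsilon_spec ?_
  obtain ⟨f, hC, hf⟩ := h.exists_five
  obtain ⟨k, hk⟩ := h.five_mem hC hf (mul_mem (mul_mem hx hC) (inv_mem hx))
    (by rw [conj_pow, five_of hf]; group)
  exact ⟨k, h.Chi_of hC hf hx hk⟩

theorem chi_eq {f x : G} (hC : f ∈ Cz z) (hf : orderOf f = 5) (hx : x ∈ Cz z) {k : ZMod 5}
    (e : E z (x * f * x⁻¹) (P f k)) : chi z x = k :=
  h.P_inj hf ((h.chi_spec hx f hC (five_of hf)).symm.trans e)

theorem chi_mul {x y : G} (hx : x ∈ Cz z) (hy : y ∈ Cz z) :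
    chi z (x * y) = chi z x * chi z y := by
  obtain ⟨f, hC, hf⟩ := h.exists_five
  refine h.chi_eq hC hf (mul_mem hx hy) ?_
  have h1 := (h.chi_spec hy f hC (five_of hf)).conj hx
  rw [← P_conj] at h1
  have h2 := h1.trans ((h.chi_spec hx f hC (five_of hf)).P _)
  rw [← P_mul (five_of hf)] at h2
  convert h2 using 1
  group

theorem chi_of_comm {f x : G} (hC : f ∈ Cz z) (hf : orderOf f = 5) (hx : x ∈ Cz z)
    (e : x * f = f * x) : chi z x = 1 :=
  h.chi_eq hC hf hx (by rw [P_one, e, mul_inv_cancel_right]; exact E.refl hC)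

theorem chi_one : chi z 1 = 1 := by
  obtain ⟨f, hC, hf⟩ := h.exists_five
  exact h.chi_of_comm hC hf (one_mem _) (by simp)

theorem chi_Q {q : G} (hq : q ∈ Qp z) : chi z q = 1 := by
  obtain ⟨f, hC, hf⟩ := h.exists_five
  refine h.chi_eq hC hf (Qp_le z hq) ?_
  have := ((E.of_mem hq).mul (E.refl hC)).mul (E.of_mem hq).inv
  simpa [P_one] using this

theorem chi_mul_inv {x : G} (hx : x ∈ Cz z) : chi z x * chi z x⁻¹ = 1 := by
  rw [← h.chi_mul hx (inv_mem hx), mul_inv_cancel, h.chi_one]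

theorem chi_ne {x : G} (hx : x ∈ Cz z) : chi z x ≠ 0 := fun e => by
  have := h.chi_mul_inv hx
  rw [e, zero_mul] at this
  exact absurd this (by decide)

theorem chi_pow {x : G} (hx : x ∈ Cz z) (n : ℕ) : chi z (x ^ n) = chi z x ^ n := by
  induction n with
  | zero => simpa using h.chi_one
  | succ n ih => rw [pow_succ, pow_succ, h.chi_mul (pow_mem hx n) hx, ih]

theorem chi_P {f : G} (hC : f ∈ Cz z) (hf : orderOf f = 5) (i : ZMod 5) : chi z (P f i) = 1 :=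
  h.chi_of_comm hC hf (P_mem hC i) ((Commute.refl f).pow_left _).eq

theorem chi_comm {x y : G} (hx : x ∈ Cz z) (hy : y ∈ Cz z) : chi z (x * y * x⁻¹ * y⁻¹) = 1 := by
  rw [h.chi_mul (mul_mem (mul_mem hx hy) (inv_mem hx)) (inv_mem hy), chi_cj' hx, h.chi_mul_inv hy]

/-- Action of `C(z)` on the cosets `f^i S`. -/
theorem mul_P {f s : G} (hC : f ∈ Cz z) (hf : orderOf f = 5) (hs : s ∈ Cz z) (i : ZMod 5) :
    ∃ q ∈ Qp z, s * P f i = P f (chi z s * i) * q * s := by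
  have h1 := (h.chi_spec hs f hC (five_of hf)).P i
  rw [← P_mul (five_of hf), P_conj] at h1
  obtain ⟨q, hq, e⟩ := h1.exists_right
  exact ⟨q, hq, by rw [← e]; group⟩

theorem cj_line {f s : G} (hC : f ∈ Cz z) (hf : orderOf f = 5) (hs : s ∈ Sf W z) (i : ZMod 5) :
    H84.cj s (H84.cj (P f i) W) = H84.cj (P f (chi z s * i)) W := by
  obtain ⟨q, hq, e⟩ := h.mul_P hC hf hs.1 i
  rw [cj_cj, e, mul_assoc, ← cj_cj, mem_Nm.mp (mul_mem (h.Q_le_S hq).2 hs.2)]

theorem line_inj {f : G} (hC : f ∈ Cz z) (hf : orderOf f = 5) {i j : ZMod 5}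
    (e : H84.cj (P f i) W = H84.cj (P f j) W) : i = j := by
  have h2 : P f (-j + i) ∈ Sf W z := by
    refine ⟨P_mem hC _, mem_Nm.mpr ?_⟩
    rw [P_add (five_of hf), P_neg (five_of hf), ← cj_cj, e, cj_cj, inv_mul_cancel, cj_one]
  have := h.P_mem_S hf h2
  linear_combination this

theorem line_eq {f : G} (hC : f ∈ Cz z) (hf : orderOf f = 5) {g : G} (hg : z ∈ H84.cj g W) :
    ∃ i, H84.cj g W = H84.cj (P f i) W := by
  obtain ⟨c, hc, e⟩ := h.line_conj hg
  obtain ⟨i, s, hs, rfl⟩ := h.decomp hC hf hc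
  exact ⟨i, by rw [e, ← cj_cj, mem_Nm.mp hs.2]⟩

theorem mem_Q_of_chi {s : G} (hs : s ∈ Sf W z) (e : chi z s = 1) : s ∈ Qp z := by
  obtain ⟨f, hC, hf⟩ := h.exists_five
  refine h.mem_Q_of_fix hs.1 fun c hc => ?_
  obtain ⟨i, s', hs', rfl⟩ := h.decomp hC hf hc
  rw [← cj_cj, mem_Nm.mp hs'.2, mem_Nm, h.cj_line hC hf hs, e, one_mul]

/-- An element fixing two lines through `z` fixes all of them. -/
theorem mem_Q_of_two {s g : G} (hs : s ∈ Sf W z) (hg : z ∈ H84.cj g W) (hne : H84.cj g W ≠ W)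
    (hn : s ∈ Nm (H84.cj g W)) : s ∈ Qp z := by
  obtain ⟨f, hC, hf⟩ := h.exists_five
  obtain ⟨i, e⟩ := h.line_eq hC hf hg
  rw [e] at hne hn
  have h1 := h.line_inj hC hf ((h.cj_line hC hf hs i).symm.trans (mem_Nm.mp hn))
  have hi : i ≠ 0 := fun e0 => hne (by rw [e0, P_zero, cj_one])
  have : Fact (Nat.Prime 5) := ⟨by norm_num⟩
  exact h.mem_Q_of_chi hs (mul_right_cancel₀ hi (by rw [h1, one_mul]))

/-- A 2-element of `C(z)` fixes a line through `z`. -/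
theorem exists_conj_S {f : G} (hC : f ∈ Cz z) (hf : orderOf f = 5) {x : G} (hx : x ∈ Cz z) {n : ℕ}
    (h2 : x ^ 2 ^ n = 1) : ∃ i : ZMod 5, (P f i)⁻¹ * x * P f i ∈ Sf W z := by
  have : Fact (Nat.Prime 2) := ⟨Nat.prime_two⟩
  obtain ⟨g, hg, hle⟩ := (h.syl.mono inf_le_left le_top).exists_conj_le
    (U := zpowers x) ((zpowers_le).mpr hx) (IsPGroup.of_card_dvd_pow (n := n) (by
      rw [Nat.card_zpowers]; exact orderOf_dvd_of_pow_eq_one h2))
  obtain ⟨i, s, hs, e⟩ := h.decomp hC hf (inv_mem hg)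
  have h1 := hle (conj_mem_cj (g := g) (mem_zpowers x))
  refine ⟨i, ?_⟩
  have h3 := mul_mem (mul_mem hs h1) (inv_mem hs)
  rwa [show g = (P f i * s)⁻¹ by rw [← e, inv_inv],
    show s * ((P f i * s)⁻¹ * x * (P f i * s)⁻¹⁻¹) * s⁻¹ = (P f i)⁻¹ * x * P f i by group] at h3

theorem mem_Q_of_chi' {x : G} (hx : x ∈ Cz z) {n : ℕ} (h2 : x ^ 2 ^ n = 1) (e : chi z x = 1) :
    x ∈ Qp z := by
  obtain ⟨f, hC, hf⟩ := h.exists_five
  obtain ⟨i, hi⟩ := h.exists_conj_S hC hf hx h2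
  have h1 := h.mem_Q_of_chi hi (by
    have := chi_cj' (x := x) (inv_mem (P_mem hC i))
    rwa [inv_inv, e] at this)
  have := Qp_conj (P_mem hC i) h1
  rwa [show P f i * ((P f i)⁻¹ * x * P f i) * (P f i)⁻¹ = x by group] at this

end Fl

end Cfsg.Agent.H51.TT
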