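import Mathlib
import Cfsg.Agent.H51.Tits2

/-!
The amalgam of the Tits group, part 3: coordinates on `V_z / ⟨z⟩` and `Q_z / C(V_z)`.
-/

set_option autoImplicit false
set_option linter.unusedSectionVars false
set_option synthInstance.maxSize 1000

namespace Cfsg.Agent.H51.TT

open Cfsg Cfsg.Agent.H98 Cfsg.Agent.H84 Cfsg.Agent.H71.NG Subgroup
open scoped commutatorElement

abbrev Vc := ZMod 5 → ZMod 2

def span5 (c a : Vc) : Vc := fun j =>
  c 0 * a j + c 1 * a (j - 1) + c 2 * a (j - 2) + c 3 * a (j - 3) + c 4 * a (j - 4)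
def wt (a : Vc) : ZMod 2 := a 0 + a 1 + a 2 + a 3 + a 4
def dot (b a : Vc) : ZMod 2 := b 0 * a 0 + b 1 * a 1 + b 2 * a 2 + b 3 * a 3 + b 4 * a 4
def sg (i : ZMod 5) (e : ZMod 2) : Vc := fun j => if j = i then e else 0
def sh (k : ZMod 5) (a : Vc) : Vc := fun j => a (j - k)
def sc (k : ZMod 5) (a : Vc) : Vc := fun j => a (k * j)
def vec (a0 a1 a2 a3 a4 : ZMod 2) : Vc := fun j =>
  if j = 0 then a0 else if j = 1 then a1 else if j = 2 then a2 else if j = 3 then a3 else a4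

theorem irr : ∀ a b : Vc, a ≠ 0 → a ≠ 1 → wt b = 0 → ∃ c, span5 c a = b := by decide +kernel

theorem perm_sc : ∀ (x y : ZMod 5), x * y = 1 → ∀ a : Vc, sg (x * 0) (a 0) + sg (x * 1) (a 1) +
    sg (x * 2) (a 2) + sg (x * 3) (a 3) + sg (x * 4) (a 4) = sc y a := by decide +kernel

theorem perm_sh : ∀ (x : ZMod 5), ∀ a : Vc, sg (x + 0) (a 0) + sg (x + 1) (a 1) +
    sg (x + 2) (a 2) + sg (x + 3) (a 3) + sg (x + 4) (a 4) = sh x a := by decide +kernel

theorem zmod2 (e : ZMod 2) : e = 0 ∨ e = 1 := by revert e; decide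

theorem vc_add_self : ∀ a : Vc, a + a = 0 := by decide +kernel

theorem zmod5 : ∀ k : ZMod 5, k ≠ 0 → k = 1 ∨ k = 2 ∨ k = 3 ∨ k = 4 := by decide

theorem span5_mem {R : Vc → Prop} (h0 : R 0) (hadd : ∀ a b, R a → R b → R (a + b))
    (hsh : ∀ k a, R a → R (sh k a)) {a : Vc} (ha : R a) (c : Vc) : R (span5 c a) := by
  have hs : ∀ (e : ZMod 2) (k : ZMod 5), R (fun j => e * a (j - k)) := fun e k => by
    rcases zmod2 e with rfl | rfl
    · convert h0 using 1; funext j; simp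
    · convert hsh k a ha using 1; funext j; simp [sh]
  have := hadd _ _ (hadd _ _ (hadd _ _ (hadd _ _ (hs (c 0) 0) (hs (c 1) 1)) (hs (c 2) 2))
    (hs (c 3) 3)) (hs (c 4) 4)
  convert this using 1
  funext j
  simp [span5]

theorem even_of_mem {R : Vc → Prop} (h0 : R 0) (hadd : ∀ a b, R a → R b → R (a + b))
    (hsh : ∀ k a, R a → R (sh k a)) {a : Vc} (ha : R a) (h1 : a ≠ 0) (h2 : a ≠ 1) {b : Vc}
    (hb : wt b = 0) : R b := by
  obtain ⟨c, rfl⟩ := irr a b h1 h2 hb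
  exact span5_mem h0 hadd hsh ha c

variable {G : Type*} [Group G] [Finite G]

def zp (z : G) (e : ZMod 2) : G := z ^ e.val

@[simp] theorem zp_zero (z : G) : zp z 0 = 1 := by simp [zp]
@[simp] theorem zp_one (z : G) : zp z 1 = z := by
  rw [zp, show (1 : ZMod 2).val = 1 from rfl, pow_one]

theorem zp_add {z : G} (hz : z * z = 1) (a b : ZMod 2) : zp z (a + b) = zp z a * zp z b := by
  rcases zmod2 a with rfl | rfl <;> rcases zmod2 b with rfl | rfl <;>
    simp [show (1 : ZMod 2) + 1 = 0 from rfl, hz]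

theorem zp_mem {z : G} {H : Subgroup G} (hz : z ∈ H) (e : ZMod 2) : zp z e ∈ H := H.pow_mem hz _

theorem zp_conj (g z : G) (e : ZMod 2) : g * zp z e * g⁻¹ = zp (g * z * g⁻¹) e := by
  rw [zp, zp, conj_pow]

theorem zp_inj {z : G} (hz : z ≠ 1) {a b : ZMod 2} (e : zp z a = zp z b) : a = b := by
  rcases zmod2 a with rfl | rfl <;> rcases zmod2 b with rfl | rfl <;> simp_all [eq_comm]

theorem zp_cases (z : G) (e : ZMod 2) : zp z e = 1 ∨ zp z e = z := by
  rcases zmod2 e with rfl | rfl <;> simp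

/-- The commutative group structure of a subgroup of exponent 2. -/
@[reducible] def cg {X : Subgroup G} (hX : ∀ x ∈ X, x * x = 1) : CommGroup X :=
  { (inferInstance : Group X) with mul_comm := fun a b => Subtype.ext (comm_of_sq hX a.2 b.2) }

theorem ac6 {X : Subgroup G} (hX : ∀ x ∈ X, x * x = 1) {a b c d e f a' b' c' d' e' f' : G}
    (ha : a ∈ X) (hb : b ∈ X) (hc : c ∈ X) (hd : d ∈ X) (he : e ∈ X) (hf : f ∈ X)
    (ha' : a' ∈ X) (hb' : b' ∈ X) (hc' : c' ∈ X) (hd' : d' ∈ X) (he' : e' ∈ X) (hf' : f' ∈ X) :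
    a * b * c * d * e * f * (a' * b' * c' * d' * e' * f') =
      a * a' * (b * b') * (c * c') * (d * d') * (e * e') * (f * f') := by
  letI := cg hX
  have : ∀ a b c d e f a' b' c' d' e' f' : X, a * b * c * d * e * f *
      (a' * b' * c' * d' * e' * f') =
      a * a' * (b * b') * (c * c') * (d * d') * (e * e') * (f * f') := by
    intros; ac_rfl
  exact congrArg Subtype.val (this ⟨a, ha⟩ ⟨b, hb⟩ ⟨c, hc⟩ ⟨d, hd⟩ ⟨e, he⟩ ⟨f, hf⟩ ⟨a', ha'⟩
    ⟨b', hb'⟩ ⟨c', hc'⟩ ⟨d', hd'⟩ ⟨e', he'⟩ ⟨f', hf'⟩)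

def wi (f w : G) (i : ZMod 5) : G := P f i * w * (P f i)⁻¹

def om5 (f w : G) (a : Vc) : G :=
  zp (wi f w 0) (a 0) * zp (wi f w 1) (a 1) * zp (wi f w 2) (a 2) * zp (wi f w 3) (a 3) *
    zp (wi f w 4) (a 4)

def Vec (z f w v : G) (a : Vc) : Prop := ∃ e, v = om5 f w a * zp z e

open Classical in
noncomputable def bt (f w q : G) : Vc := fun i => if q * wi f w i = wi f w i * q then 0 else 1

theorem wi_zero (f w : G) : wi f w 0 = w := by simp [wi, P_zero]

/-- A frame with an element of order 5. -/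
structure Fc (W : Subgroup G) (z w u f : G) : Prop extends Fr W z w u where
  hf : f ∈ Cz z
  ord : orderOf f = 5

theorem Fr.exists_fc {W : Subgroup G} {z w u : G} (F : Fr W z w u) : ∃ f, Fc W z w u f := by
  obtain ⟨f, h1, h2⟩ := F.fl.exists_five
  exact ⟨f, F, h1, h2⟩

namespace Fc

variable {W : Subgroup G} {z w u f : G} (F : Fc W z w u f)
include F

theorem f5 : f ^ 5 = 1 := five_of F.ord

theorem PC (i : ZMod 5) : P f i ∈ Cz z := P_mem F.hf i

theorem fr (i : ZMod 5) : Fr (H84.cj (P f i) W) z (wi f w i) (z * wi f w i) := by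
  have := F.toFr.cj (P f i)
  rw [mem_Cz'.mp (F.PC i)] at this
  exact ⟨this.fl, this.hw, this.w1, this.wz, rfl⟩

theorem wi_mem (i : ZMod 5) : wi f w i ∈ Vp W z := Vp_conj (F.PC i) (F.fl.W_le_V F.hw)

theorem wi_sq (i : ZMod 5) : wi f w i * wi f w i = 1 := F.fl.Vsq _ (F.wi_mem i)

theorem conj_wi_P (j i : ZMod 5) : P f j * wi f w i * (P f j)⁻¹ = wi f w (j + i) := by
  rw [wi, wi, P_add F.f5]; group

theorem conj_w {s : G} (hs : s ∈ Sf W z) : ∃ e, s * w * s⁻¹ = w * zp z e := by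
  rcases F.toFr.fix_or_swap hs with h | h
  · exact ⟨0, by simpa using h.1⟩
  · exact ⟨1, by rw [h.1, zp_one, F.toFr.wz']⟩

theorem conj_wi_S {s : G} (hs : s ∈ Sf W z) (i : ZMod 5) :
    ∃ e, s * wi f w i * s⁻¹ = wi f w (chi z s * i) * zp z e := by
  obtain ⟨q, hq, e⟩ := F.fl.mul_P F.hf F.ord hs.1 i
  obtain ⟨a, ha⟩ := F.conj_w (mul_mem (F.fl.Q_le_S hq) hs)
  refine ⟨a, ?_⟩
  calc s * wi f w i * s⁻¹ = (s * P f i) * w * (s * P f i)⁻¹ := by rw [wi]; group
    _ = P f (chi z s * i) * (q * s * w * (q * s)⁻¹) * (P f (chi z s * i))⁻¹ := by rw [e]; group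
    _ = wi f w (chi z s * i) * (P f (chi z s * i) * zp z a * (P f (chi z s * i))⁻¹) := by
      rw [ha, wi]; group
    _ = _ := by rw [zp_conj, mem_Cz'.mp (F.PC _)]

theorem om5_mem (a : Vc) : om5 f w a ∈ Vp W z :=
  mul_mem (mul_mem (mul_mem (mul_mem (zp_mem (F.wi_mem _) _) (zp_mem (F.wi_mem _) _))
    (zp_mem (F.wi_mem _) _)) (zp_mem (F.wi_mem _) _)) (zp_mem (F.wi_mem _) _)

theorem vec_mem {v : G} {a : Vc} (h : Vec z f w v a) : v ∈ Vp W z := by
  obtain ⟨e, rfl⟩ := h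
  exact mul_mem (F.om5_mem a) (zp_mem F.fl.z_mem_V e)

theorem vec_mul {v v' : G} {a a' : Vc} (h : Vec z f w v a) (h' : Vec z f w v' a') :
    Vec z f w (v * v') (a + a') := by
  obtain ⟨e, rfl⟩ := h
  obtain ⟨e', rfl⟩ := h'
  refine ⟨e + e', ?_⟩
  have m := fun i a => zp_mem (F.wi_mem i) a
  have mz := fun a => zp_mem F.fl.z_mem_V a
  simp only [om5, Pi.add_apply, zp_add (F.wi_sq _), zp_add F.fl.zz]
  exact ac6 F.fl.Vsq (m _ _) (m _ _) (m _ _) (m _ _) (m _ _) (mz _) (m _ _) (m _ _) (m _ _)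
    (m _ _) (m _ _) (mz _)

theorem vec_zp (e : ZMod 2) : Vec z f w (zp z e) 0 := ⟨e, by simp [om5]⟩

theorem vec_one : Vec z f w 1 0 := by simpa using F.vec_zp 0

theorem vec_z : Vec z f w z 0 := by simpa using F.vec_zp 1

theorem vec_wi (i : ZMod 5) : Vec z f w (wi f w i) (sg i 1) := by
  refine ⟨0, ?_⟩
  have : i = 0 ∨ i = 1 ∨ i = 2 ∨ i = 3 ∨ i = 4 := by revert i; decide
  rcases this with rfl | rfl | rfl | rfl | rfl <;> simp (config := {decide := true}) [om5, sg]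

theorem vec_w : Vec z f w w (sg 0 1) := by simpa [wi_zero] using F.vec_wi 0

theorem vec_mul_zp {v : G} {a : Vc} (h : Vec z f w v a) (e : ZMod 2) :
    Vec z f w (v * zp z e) a := by simpa using F.vec_mul h (F.vec_zp e)

theorem vec_u : Vec z f w u (sg 0 1) := by
  have := F.vec_mul_zp F.vec_w 1
  rwa [zp_one, F.toFr.wz'] at this

theorem vec_zp_of {v : G} {i : ZMod 5} (h : Vec z f w v (sg i 1)) (e : ZMod 2) :
    Vec z f w (zp v e) (sg i e) := by
  rcases zmod2 e with rfl | rfl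
  · convert F.vec_one using 1
    · simp
    · funext j; simp [sg]
  · simpa using h

theorem exists_vec {v : G} (hv : v ∈ Vp W z) : ∃ a, Vec z f w v a := by
  let K : Subgroup G :=
    { carrier := {v | ∃ a, Vec z f w v a}
      mul_mem' := fun ⟨a, ha⟩ ⟨b, hb⟩ => ⟨_, F.vec_mul ha hb⟩
      one_mem' := ⟨_, F.vec_one⟩
      inv_mem' := fun {x} ⟨a, ha⟩ => ⟨a, by
        rwa [inv_eq_of_mul_eq_one_right (F.fl.Vsq _ (F.vec_mem ha))]⟩ }
  refine (show Vp W z ≤ K from iSup₂_le fun g hg => ?_) hv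
  obtain ⟨i, e⟩ := F.fl.line_eq F.hf F.ord hg
  rw [e]
  intro x hx
  rcases (F.fr i).cases hx with rfl | rfl | rfl | rfl
  · exact ⟨_, F.vec_one⟩
  · exact ⟨_, F.vec_z⟩
  · exact ⟨_, F.vec_wi i⟩
  · exact ⟨_, F.vec_mul F.vec_z (F.vec_wi i)⟩

theorem vec_conj {c : G} (hc : c ∈ Cz z) {σ : ZMod 5 → ZMod 5}
    (hσ : ∀ i, Vec z f w (c * wi f w i * c⁻¹) (sg (σ i) 1)) {v : G} {a : Vc}
    (h : Vec z f w v a) : Vec z f w (c * v * c⁻¹) (sg (σ 0) (a 0) + sg (σ 1) (a 1) +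
      sg (σ 2) (a 2) + sg (σ 3) (a 3) + sg (σ 4) (a 4)) := by
  obtain ⟨e, rfl⟩ := h
  have m := fun i => F.vec_zp_of (hσ i) (a i)
  have := F.vec_mul_zp (F.vec_mul (F.vec_mul (F.vec_mul (F.vec_mul (m 0) (m 1)) (m 2)) (m 3))
    (m 4)) e
  convert this using 1
  simp only [← zp_conj, om5]
  nth_rw 2 [← mem_Cz'.mp hc]
  rw [← zp_conj]
  group

theorem vec_conj_S {s : G} (hs : s ∈ Sf W z) {v : G} {a : Vc} (h : Vec z f w v a) :
    Vec z f w (s * v * s⁻¹) (sc (chi z s⁻¹) a) := by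
  rw [← perm_sc _ _ (F.fl.chi_mul_inv hs.1)]
  refine F.vec_conj hs.1 (σ := fun i => chi z s * i) (fun i => ?_) h
  obtain ⟨e, he⟩ := F.conj_wi_S hs i
  exact he ▸ F.vec_mul_zp (F.vec_wi _) e

theorem vec_conj_P (k : ZMod 5) {v : G} {a : Vc} (h : Vec z f w v a) :
    Vec z f w (P f k * v * (P f k)⁻¹) (sh k a) := by
  rw [← perm_sh]
  refine F.vec_conj (F.PC k) (σ := fun i => k + i) (fun i => ?_) h
  exact F.conj_wi_P k i ▸ F.vec_wi _

theorem vec_zero {v : G} (h : Vec z f w v 0) : v = 1 ∨ v = z := by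
  obtain ⟨e, rfl⟩ := h
  simpa [om5] using zp_cases z e

theorem vec_triv {a : Vc} (h : Vec z f w 1 a) : a = 0 ∨ a = 1 := by
  by_contra hc
  push Not at hc
  have h1 : Vec z f w 1 (sg 0 1 + sg 1 1) :=
    even_of_mem (R := Vec z f w 1) F.vec_one (fun a b ha hb => by simpa using F.vec_mul ha hb)
      (fun k a ha => by simpa using F.vec_conj_P k ha) h hc.1 hc.2 (by decide)
  have h2 := F.vec_mul (F.vec_mul h1 (F.vec_wi 0)) (F.vec_wi 1)
  rw [show sg 0 1 + sg 1 1 + sg 0 1 + sg 1 1 = 0 by decide, one_mul] at h2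
  have h3 : wi f w 1 ∈ H84.cj (P f 0) W := by
    have m0 := (F.fr 0).hw
    have mz := (F.fr 0).hz
    rcases F.vec_zero h2 with e | e
    · exact (mul_mem_cancel_left m0).mp (e ▸ one_mem _)
    · exact (mul_mem_cancel_left m0).mp (e ▸ mz)
  have h4 : H84.cj (P f 1) W = H84.cj (P f 0) W := by
    refine eq_of_le_of_card_ge (fun x hx => ?_) (by rw [(F.fr 0).fl.card, (F.fr 1).fl.card])
    rcases (F.fr 1).cases hx with rfl | rfl | rfl | rfl
    exacts [one_mem _, (F.fr 0).hz, h3, mul_mem (F.fr 0).hz h3]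
  exact absurd (F.fl.line_inj F.hf F.ord h4) (by decide)

theorem vec_all : Vec z f w 1 1 := by
  classical
  let φ : Vc × ZMod 2 → Vp W z := fun x => ⟨om5 f w x.1 * zp z x.2, F.vec_mem ⟨x.2, rfl⟩⟩
  have : ¬ Function.Injective φ := fun hi => by
    have := Nat.card_le_card_of_injective φ hi
    rw [F.fl.Vcard] at this
    simp [Nat.card_prod, Nat.card_fun] at this
  rw [Function.not_injective_iff] at this
  obtain ⟨⟨a, e⟩, ⟨a', e'⟩, h1, h2⟩ := this
  have h3 : om5 f w a * zp z e = om5 f w a' * zp z e' := congrArg Subtype.val h1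
  have h4 := F.vec_mul (⟨e, rfl⟩ : Vec z f w _ a) (⟨e', h3⟩ : Vec z f w _ a')
  rw [F.fl.Vsq _ (F.vec_mem ⟨e, rfl⟩)] at h4
  rcases F.vec_triv h4 with h5 | h5
  · have : a = a' := by
      have h6 : ∀ a a' : Vc, a + a' = 0 → a = a' := by decide +kernel
      exact h6 _ _ h5
    subst this
    exact absurd (by rw [zp_inj F.fl.ne (mul_left_cancel h3)]) h2
  · exact h5 ▸ h4

theorem vec_compl {v : G} {a : Vc} (h : Vec z f w v a) : Vec z f w v (a + 1) := by
  simpa using F.vec_mul h F.vec_all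

theorem vec_eq {v v' : G} {a : Vc} (h : Vec z f w v a) (h' : Vec z f w v' a) :
    v' = v ∨ v' = v * z := by
  have h1 := F.vec_mul h h'
  rw [vc_add_self] at h1
  have hv := F.fl.Vsq _ (F.vec_mem h)
  rcases F.vec_zero h1 with e | e
  · left; rw [← one_mul v', ← hv, mul_assoc, e, mul_one]
  · right; rw [← one_mul v', ← hv, mul_assoc, e]

theorem vec_uniq {v : G} {a a' : Vc} (h : Vec z f w v a) (h' : Vec z f w v a') :
    a' = a ∨ a' = a + 1 := by
  have h1 := F.vec_mul h h'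
  rw [F.fl.Vsq _ (F.vec_mem h)] at h1
  have h6 : ∀ a a' : Vc, (a + a' = 0 ∨ a + a' = 1) → a' = a ∨ a' = a + 1 := by decide +kernel
  exact h6 _ _ (F.vec_triv h1)

theorem conj_wi_Q {q : G} (hq : q ∈ Qp z) (i : ZMod 5) :
    q * wi f w i * q⁻¹ = wi f w i * zp z (bt f w q i) := by
  obtain ⟨e, he⟩ := F.conj_wi_S (F.fl.Q_le_S hq) i
  rw [F.fl.chi_Q hq, one_mul] at he
  unfold bt
  split_ifs with hc
  · rw [hc]; simp
  · rcases zmod2 e with rfl | rfl
    · exact absurd (mul_inv_eq_iff_eq_mul.mp (by simpa using he)) hc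
    · exact he

theorem conj_Q {q : G} (hq : q ∈ Qp z) {v : G} {a : Vc} (h : Vec z f w v a) :
    q * v * q⁻¹ = v * zp z (dot (bt f w q) a) := by
  obtain ⟨e, rfl⟩ := h
  have m : ∀ i, q * zp (wi f w i) (a i) * q⁻¹ =
      zp (wi f w i) (a i) * zp z (bt f w q i * a i) := fun i => by
    rcases zmod2 (a i) with e0 | e0 <;> simp [e0, F.conj_wi_Q hq]
  have mz : q * zp z e * q⁻¹ = zp z e * 1 := by
    rw [zp_conj, mem_Cz'.mp (Qp_le z hq), mul_one]
  have mw := fun i a => zp_mem (F.wi_mem i) a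
  have mm := fun a => zp_mem F.fl.z_mem_V a
  have := ac6 F.fl.Vsq (mw 0 (a 0)) (mw 1 (a 1)) (mw 2 (a 2)) (mw 3 (a 3)) (mw 4 (a 4)) (mm e)
    (mm (bt f w q 0 * a 0)) (mm (bt f w q 1 * a 1)) (mm (bt f w q 2 * a 2))
    (mm (bt f w q 3 * a 3)) (mm (bt f w q 4 * a 4)) (one_mem _)
  simp only [← m, ← mz] at this
  simp only [om5, dot, zp_add F.fl.zz]
  rw [mul_one] at this
  rw [this]
  group

theorem bt_of_conj {q : G} {b : Vc} (h : ∀ i, q * wi f w i * q⁻¹ = wi f w i * zp z (b i)) :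
    bt f w q = b := by
  funext i
  unfold bt
  have := h i
  split_ifs with hc
  · rw [hc, mul_inv_cancel_right, left_eq_mul] at this
    exact zp_inj F.fl.ne (by rw [this, zp_zero])
  · rcases zmod2 (b i) with e | e
    · exact absurd (mul_inv_eq_iff_eq_mul.mp (by simpa [e] using this)) hc
    · exact e.symm

theorem bt_mul {q q' : G} (hq : q ∈ Qp z) (hq' : q' ∈ Qp z) :
    bt f w (q * q') = bt f w q + bt f w q' :=
  F.bt_of_conj fun i => by
    calc q * q' * wi f w i * (q * q')⁻¹ = q * (q' * wi f w i * q'⁻¹) * q⁻¹ := by group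
      _ = q * wi f w i * q⁻¹ * (q * zp z (bt f w q' i) * q⁻¹) := by rw [F.conj_wi_Q hq']; group
      _ = _ := by
        rw [F.conj_wi_Q hq, zp_conj, mem_Cz'.mp (Qp_le z hq), Pi.add_apply, zp_add F.fl.zz,
          mul_assoc]

theorem bt_eq_zero {q : G} (hq : q ∈ Qp z) :
    bt f w q = 0 ↔ q ∈ centralizer (Vp W z : Set G) := by
  constructor
  · intro h v hv
    obtain ⟨a, ha⟩ := F.exists_vec hv
    have := F.conj_Q hq ha
    rw [h, show dot 0 a = 0 by simp [dot], zp_zero, mul_one] at this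
    exact (mul_inv_eq_iff_eq_mul.mp this).symm
  · intro h
    exact F.bt_of_conj fun i => by rw [← h _ (F.wi_mem i)]; simp

theorem bt_one : bt f w 1 = 0 := (F.bt_eq_zero (one_mem _)).mpr (one_mem _)

theorem bt_inv {q : G} (hq : q ∈ Qp z) : bt f w q⁻¹ = bt f w q := by
  have := F.bt_mul hq (inv_mem hq)
  rw [mul_inv_cancel, F.bt_one] at this
  have h6 : ∀ a a' : Vc, 0 = a + a' → a' = a := by decide +kernel
  exact h6 _ _ this

theorem bt_V {v : G} (hv : v ∈ Vp W z) : bt f w v = 0 :=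
  (F.bt_eq_zero (F.fl.V_le_Q hv)).mpr fun _ hx => F.fl.Vcomm hx hv

theorem bt_wt {q : G} (hq : q ∈ Qp z) : wt (bt f w q) = 0 := by
  have := F.conj_Q hq F.vec_all
  rw [mul_one, mul_inv_cancel, one_mul] at this
  have h1 := zp_inj F.fl.ne ((zp_zero z).trans this)
  rw [h1]; simp [dot, wt]

theorem bt_conj {c : G} (hc : c ∈ Cz z) {σ : ZMod 5 → ZMod 5}
    (hσ : ∀ i, ∃ e, c⁻¹ * wi f w i * c = wi f w (σ i) * zp z e) {q : G} (hq : q ∈ Qp z) :
    bt f w (c * q * c⁻¹) = fun i => bt f w q (σ i) :=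
  F.bt_of_conj fun i => by
    obtain ⟨e, he⟩ := hσ i
    have h1 := F.conj_Q hq (F.vec_mul_zp (F.vec_wi (σ i)) e)
    rw [← he, show dot (bt f w q) (sg (σ i) 1) = bt f w q (σ i) by
      generalize bt f w q = b; generalize σ i = j; revert b j; decide +kernel] at h1
    calc c * q * c⁻¹ * wi f w i * (c * q * c⁻¹)⁻¹
        = c * (q * (c⁻¹ * wi f w i * c) * q⁻¹) * c⁻¹ := by group
      _ = wi f w i * (c * zp z (bt f w q (σ i)) * c⁻¹) := by rw [h1]; group
      _ = _ := by rw [zp_conj, mem_Cz'.mp hc]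

theorem bt_conj_S {s : G} (hs : s ∈ Sf W z) {q : G} (hq : q ∈ Qp z) :
    bt f w (s * q * s⁻¹) = sc (chi z s⁻¹) (bt f w q) :=
  F.bt_conj hs.1 (σ := fun i => chi z s⁻¹ * i)
    (fun i => by simpa using F.conj_wi_S (inv_mem hs) i) hq

theorem bt_conj_P (k : ZMod 5) {q : G} (hq : q ∈ Qp z) :
    bt f w (P f k * q * (P f k)⁻¹) = sh k (bt f w q) :=
  F.bt_conj (F.PC k) (σ := fun i => i - k) (fun i => ⟨0, by
    have := F.conj_wi_P (-k) i
    rw [P_neg F.f5, inv_inv] at this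
    rw [this, zp_zero, mul_one]; congr 1; ring⟩) hq

theorem exists_bt_ne : ∃ q ∈ Qp z, bt f w q ≠ 0 := by
  by_contra hc
  push Not at hc
  have hx : Vec z f w (wi f w 1 * wi f w 2 * wi f w 3 * wi f w 4) _ :=
    F.vec_mul (F.vec_mul (F.vec_mul (F.vec_wi 1) (F.vec_wi 2)) (F.vec_wi 3)) (F.vec_wi 4)
  have hm := F.vec_mem hx
  have h1 := F.fl.om _ (F.fl.Q_le_S (F.fl.V_le_Q hm)) (fun s hs => by
    obtain ⟨e, he⟩ := F.conj_w hs
    have key : ∀ i, s * wi f w i * s⁻¹ = wi f w (chi z s * i) * zp z e := fun i => by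
      obtain ⟨q, hq, e1⟩ := F.fl.mul_P F.hf F.ord hs.1 i
      have hq' := (F.bt_eq_zero hq).mp (hc q hq) _
        (mul_mem (F.fl.W_le_V F.hw) (zp_mem F.fl.z_mem_V e))
      calc s * wi f w i * s⁻¹ = (s * P f i) * w * (s * P f i)⁻¹ := by rw [wi]; group
        _ = P f (chi z s * i) * (q * (s * w * s⁻¹) * q⁻¹) * (P f (chi z s * i))⁻¹ := by
          rw [e1]; group
        _ = wi f w (chi z s * i) * (P f (chi z s * i) * zp z e * (P f (chi z s * i))⁻¹) := by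
          rw [he, ← hq', wi]; group
        _ = _ := by rw [zp_conj, mem_Cz'.mp (F.PC _)]
    rw [← mul_inv_eq_iff_eq_mul]
    have e2 : s * (wi f w 1 * wi f w 2 * wi f w 3 * wi f w 4) * s⁻¹ = s * wi f w 1 * s⁻¹ *
      (s * wi f w 2 * s⁻¹) * (s * wi f w 3 * s⁻¹) * (s * wi f w 4 * s⁻¹) := by group
    rw [e2, key, key, key, key]
    letI := cg F.fl.Vsq
    let y : ZMod 5 → Vp W z := fun i => ⟨wi f w i, F.wi_mem i⟩
    let ζ : Vp W z := ⟨zp z e, zp_mem F.fl.z_mem_V e⟩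
    have hζ : ζ * ζ = 1 := Subtype.ext (F.fl.Vsq _ ζ.2)
    have h0 := F.fl.chi_ne hs.1
    generalize chi z s = k at h0
    have : y (k * 1) * ζ * (y (k * 2) * ζ) * (y (k * 3) * ζ) * (y (k * 4) * ζ) =
        y 1 * y 2 * y 3 * y 4 := by
      have h2 : y (k * 1) * ζ * (y (k * 2) * ζ) * (y (k * 3) * ζ) * (y (k * 4) * ζ) =
        y (k * 1) * y (k * 2) * y (k * 3) * y (k * 4) * (ζ * ζ) * (ζ * ζ) := by ac_rfl
      rw [h2, hζ, mul_one, mul_one]
      have := zmod5 k h0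
      rcases this with rfl | rfl | rfl | rfl
      · rfl
      · change y 2 * y 4 * y 1 * y 3 = _; ac_rfl
      · change y 3 * y 1 * y 4 * y 2 = _; ac_rfl
      · change y 4 * y 3 * y 2 * y 1 = _; ac_rfl
    exact congrArg Subtype.val this) (F.fl.Vsq _ hm)
  rcases h1 with e | e
  · rw [e] at hx
    exact absurd (F.vec_triv hx) (by decide)
  · rw [e] at hx
    exact absurd (F.vec_uniq F.vec_z hx) (by decide)

theorem exists_bt {b : Vc} (hb : wt b = 0) : ∃ q ∈ Qp z, bt f w q = b := by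
  obtain ⟨q, hq, hne⟩ := F.exists_bt_ne
  refine even_of_mem (R := fun b => ∃ q ∈ Qp z, bt f w q = b) ⟨1, one_mem _, F.bt_one⟩ ?_ ?_
    ⟨q, hq, rfl⟩ hne (fun e => ?_) hb
  · rintro _ _ ⟨x, hx, rfl⟩ ⟨y, hy, rfl⟩
    exact ⟨_, mul_mem hx hy, F.bt_mul hx hy⟩
  · rintro k _ ⟨x, hx, rfl⟩
    exact ⟨_, Qp_conj (F.PC k) hx, F.bt_conj_P k hx⟩
  · have := F.bt_wt hq
    rw [e] at this
    exact absurd this (by decide)

end Fc

end Cfsg.Agent.H51.TT
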