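import Mathlib
import Cfsg.Agent.H51.QdInv
import Cfsg.Agent.H63.BG1
import Cfsg.Agent.H83.Syl

/-! Borel subgroups of `SL₂(p)` acting on a quadratic module. -/

set_option autoImplicit false

namespace Cfsg.Agent.H51.ZF

open Subgroup Module
open scoped commutatorElement

variable {p : ℕ} [Fact p.Prime]

section Mod

variable {E M : Type*} [Group E] [AddCommGroup M] [Module (ZMod p) M]

theorem pow_quad {R : Type*} [Ring R] {A : R} (h : A * A = 0) (n : ℕ) :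
    (1 + A) ^ n = 1 + (n : R) * A := by
  induction n with
  | zero => simp
  | succ n ih =>
    rw [pow_succ, ih, Nat.cast_succ]
    have : (1 + (n : R) * A) * (1 + A) = 1 + ((n : R) + 1) * A + n * (A * A) := by noncomm_ring
    rw [this, h, mul_zero, add_zero]

theorem pow_quad' {A : End (ZMod p) M} (h : A * A = 0) (t : ZMod p) :
    (1 + A) ^ t.val = 1 + t • A := by
  rw [pow_quad h, ← nsmul_eq_mul, ← Nat.cast_smul_eq_nsmul (ZMod p), ZMod.natCast_zmod_val]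

theorem exists_fixed [Finite M] [Nontrivial M] {Q : Subgroup (End (ZMod p) M)ˣ}
    (hQ : IsPGroup p Q) : ∃ m : M, m ≠ 0 ∧ ∀ q ∈ Q, (q : End (ZMod p) M) m = m := by
  have hfin : Finite (End (ZMod p) M) :=
    Finite.of_injective (fun f : End (ZMod p) M => (f : M → M)) DFunLike.coe_injective
  have hp : p ∣ Nat.card M := by
    obtain ⟨m, hm⟩ := exists_ne (0 : M)
    have h1 : addOrderOf m = p := addOrderOf_eq_prime (by
      rw [← Nat.cast_smul_eq_nsmul (ZMod p), ZMod.natCast_self, zero_smul]) hm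
    exact h1 ▸ addOrderOf_dvd_natCard m
  obtain ⟨m, hm, h0⟩ := hQ.exists_fixed_point_of_prime_dvd_card_of_fixed_point M hp (a := 0)
    (fun q => map_zero (q.1 : End (ZMod p) M))
  exact ⟨m, h0.symm, fun q hq => hm ⟨q, hq⟩⟩

theorem comm_c (ρ : Representation (ZMod p) E M) {a b : E} (hab : closure {a, b} = ⊤)
    (ha : (ρ a - 1) * (ρ a - 1) = 0) (hb : (ρ b - 1) * (ρ b - 1) = 0) (g : E) :
    ρ g * ((ρ a - 1) * (ρ b - 1) + (ρ b - 1) * (ρ a - 1)) =
      ((ρ a - 1) * (ρ b - 1) + (ρ b - 1) * (ρ a - 1)) * ρ g := by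
  set c := (ρ a - 1) * (ρ b - 1) + (ρ b - 1) * (ρ a - 1)
  have h1 : (ρ a - 1) * c = c * (ρ a - 1) := by
    simp only [c, mul_add, add_mul, ← mul_assoc, ha, zero_mul, zero_add]
    rw [mul_assoc (ρ b - 1), ha, mul_zero, add_zero]
  have h2 : (ρ b - 1) * c = c * (ρ b - 1) := by
    simp only [c, mul_add, add_mul, ← mul_assoc, hb, zero_mul, add_zero]
    rw [mul_assoc (ρ a - 1), hb, mul_zero, zero_add]
  have h3 : ∀ x : E, (ρ x - 1) * c = c * (ρ x - 1) → ρ x * c = c * ρ x := fun x hx => by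
    rwa [sub_mul, mul_sub, one_mul, mul_one, sub_left_inj] at hx
  have hg : g ∈ Subgroup.closure ({a, b} : Set E) := by rw [hab]; trivial
  induction hg using Subgroup.closure_induction with
  | mem x hx =>
    rcases hx with rfl | rfl
    · exact h3 _ h1
    · exact h3 _ h2
  | one => simp
  | mul x y _ _ hx hy => rw [map_mul, mul_assoc, hy, ← mul_assoc, hx, mul_assoc]
  | inv x _ hx =>
    calc ρ x⁻¹ * c = ρ x⁻¹ * c * (ρ x * ρ x⁻¹) := by rw [← map_mul, mul_inv_cancel, map_one, mul_one]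
      _ = ρ x⁻¹ * (ρ x * c) * ρ x⁻¹ := by rw [hx]; simp only [mul_assoc]
      _ = c * ρ x⁻¹ := by rw [← mul_assoc, ← map_mul, inv_mul_cancel, map_one, one_mul]

theorem span_of_inv (ρ : Representation (ZMod p) E M) {a b : E} (hab : closure {a, b} = ⊤)
    (ha : (ρ a - 1) * (ρ a - 1) = 0) (hb : (ρ b - 1) * (ρ b - 1) = 0)
    (hirr : ∀ W : Submodule (ZMod p) M, (∀ g, ∀ w ∈ W, ρ g w ∈ W) → W = ⊥ ∨ W = ⊤)
    {W : Submodule (ZMod p) M} (h0 : W ≠ ⊥) (hA : ∀ w ∈ W, (ρ a - 1) w = 0)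
    (hc : ∀ w ∈ W, ((ρ a - 1) * (ρ b - 1) + (ρ b - 1) * (ρ a - 1)) w ∈ W) (m : M) :
    ∃ w₁ ∈ W, ∃ w₂ ∈ W, m = w₁ + (ρ b - 1) w₂ := by
  have h1 : W ⊔ W.map (ρ b - 1) = ⊤ := by
    refine (hirr _ (invariant_of_closure ρ hab ha hb ?_ ?_)).resolve_left
      fun h => h0 (eq_bot_iff.mpr (le_sup_left.trans h.le))
    · intro w hw
      obtain ⟨x, hx, _, ⟨y, hy, rfl⟩, rfl⟩ := Submodule.mem_sup.mp hw
      have := hc y hy
      rw [LinearMap.add_apply, End.mul_apply, End.mul_apply, hA y hy, map_zero, add_zero] at this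
      rw [map_add, hA x hx, zero_add]
      exact Submodule.mem_sup_left this
    · intro w hw
      obtain ⟨x, hx, _, ⟨y, hy, rfl⟩, rfl⟩ := Submodule.mem_sup.mp hw
      rw [map_add, ← End.mul_apply, hb, LinearMap.zero_apply, add_zero]
      exact Submodule.mem_sup_right ⟨x, hx, rfl⟩
  obtain ⟨x, hx, _, ⟨y, hy, rfl⟩, h⟩ := Submodule.mem_sup.mp (h1.ge (Submodule.mem_top (x := m)))
  exact ⟨x, hx, y, hy, h.symm⟩

theorem exists_borel (hp : p ≠ 2) [Finite E] [Finite M] [Nontrivial M]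
    (ρ : Representation (ZMod p) E M) {a b : E} (hab : closure {a, b} = ⊤)
    (ha : (ρ a - 1) * (ρ a - 1) = 0) (hb : (ρ b - 1) * (ρ b - 1) = 0)
    (hirr : ∀ W : Submodule (ZMod p) M, (∀ g, ∀ w ∈ W, ρ g w ∈ W) → W = ⊥ ∨ W = ⊤)
    (hfix : ∀ m, ρ a m = m → ρ b m = m → m = 0) (l : (ZMod p)ˣ) :
    ∃ u h : E, (∀ m, ρ a (ρ u m - m) = ρ u m - m) ∧ ∀ e, ρ a e = e → ρ u e = e ∧
      ρ h e = (l : ZMod p) • e ∧ ∃ f, ρ u f = e + f ∧ ρ h f = ((l⁻¹ : (ZMod p)ˣ) : ZMod p) • f := by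
  have hfin : Finite (End (ZMod p) M) :=
    Finite.of_injective (fun f : End (ZMod p) M => (f : M → M)) DFunLike.coe_injective
  let φ : E →* (End (ZMod p) M)ˣ := ρ.asGroupHom
  have hφ : ∀ g, (φ g : End (ZMod p) M) = ρ g := fun g => ρ.asGroupHom_apply g
  obtain ⟨u₀, v₀, h1, h2, h3⟩ := exists_pair_of_irreducible hp ρ hab ha hb hirr (by
    by_contra h
    push Not at h
    have hQ : IsPGroup p φ.range := by
      rintro ⟨_, g, rfl⟩
      obtain ⟨k, hk⟩ := h g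
      exact ⟨k, Subtype.ext (Units.ext (by
        change ((φ g ^ p ^ k : (End (ZMod p) M)ˣ) : End (ZMod p) M) = 1
        rw [← map_pow, hφ, hk]))⟩
    obtain ⟨m, hm, hm'⟩ := exists_fixed hQ
    exact hm (hfix m (hφ a ▸ hm' _ ⟨a, rfl⟩) (hφ b ▸ hm' _ ⟨b, rfl⟩)))
  have hpz : ∀ x, (ρ x - 1) * (ρ x - 1) = 0 → IsPGroup p (zpowers (φ x)) := fun x hx => by
    refine IsPGroup.of_card_dvd_pow (n := 1) ?_
    rw [Nat.card_zpowers, pow_one]
    refine orderOf_dvd_of_pow_eq_one (Units.ext ?_)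
    rw [Units.val_pow_eq_pow_val, hφ, ← add_sub_cancel 1 (ρ x), pow_quad hx, ← nsmul_eq_mul,
      ← Nat.cast_smul_eq_nsmul (ZMod p), ZMod.natCast_self, zero_smul, add_zero, Units.val_one]
  obtain ⟨S, hS, haS⟩ := H83.exists_isSylowIn_ge (H := φ.range) (zpowers_le.mpr ⟨a, rfl⟩) (hpz a ha)
  obtain ⟨_, ⟨g, rfl⟩, hg⟩ := hS.exists_conj_le (zpowers_le.mpr ⟨u₀, rfl⟩) (hpz u₀ h1)
  obtain ⟨m₀, hm₀, hm₁⟩ := exists_fixed hS.isPGroup
  have hcj : ∀ x, ρ (g * x * g⁻¹) - 1 = ρ g * (ρ x - 1) * ρ g⁻¹ := fun x => by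
    rw [mul_sub, sub_mul, mul_one, ← map_mul, ← map_mul, ← map_mul, mul_inv_cancel, map_one]
  have hgg : ρ g⁻¹ * ρ g = 1 := by rw [← map_mul, inv_mul_cancel, map_one]
  have hmul : ∀ x y, (ρ (g * x * g⁻¹) - 1) * (ρ (g * y * g⁻¹) - 1) =
      ρ g * ((ρ x - 1) * (ρ y - 1)) * ρ g⁻¹ := fun x y => by
    rw [hcj, hcj]
    calc _ = ρ g * (ρ x - 1) * (ρ g⁻¹ * ρ g) * (ρ y - 1) * ρ g⁻¹ := by simp only [mul_assoc]
      _ = _ := by rw [hgg, mul_one, mul_assoc (ρ g)]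
  set u := g * u₀ * g⁻¹ with hu
  set v := g * v₀ * g⁻¹ with hv
  have k1 : (ρ u - 1) * (ρ u - 1) = 0 := by rw [hmul, h1, mul_zero, zero_mul]
  have k2 : (ρ v - 1) * (ρ v - 1) = 0 := by rw [hmul, h2, mul_zero, zero_mul]
  have k3 : (ρ u - 1) * (ρ v - 1) + (ρ v - 1) * (ρ u - 1) = -1 := by
    rw [hmul, hmul, ← add_mul, ← mul_add, h3, mul_neg_one, neg_mul, ← map_mul, mul_inv_cancel,
      map_one]
  have hma : ρ a m₀ = m₀ := hφ a ▸ hm₁ _ (haS (mem_zpowers _))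
  have hmu : ρ u m₀ = m₀ := by
    have := hm₁ _ (hg ⟨φ u₀, mem_zpowers _, rfl⟩)
    rw [← hφ, hu, map_mul, map_mul, map_inv]
    exact this
  have hcc := comm_c ρ hab ha hb
  set c := (ρ a - 1) * (ρ b - 1) + (ρ b - 1) * (ρ a - 1) with hc
  have hcc' : ∀ x m, (ρ x - 1) (c m) = c ((ρ x - 1) m) := fun x m => by
    rw [← End.mul_apply, ← End.mul_apply, sub_mul, mul_sub, hcc, one_mul, mul_one]
  have hsub : ∀ x m, (ρ x - 1) m = 0 ↔ ρ x m = m := fun x m => by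
    rw [LinearMap.sub_apply, sub_eq_zero]; rfl
  have hbb : ∀ m, (ρ b - 1) ((ρ b - 1) m) = 0 := fun m => LinearMap.congr_fun hb m
  have hsp := span_of_inv ρ hab ha hb hirr
    (W := LinearMap.ker (ρ a - 1) ⊓ LinearMap.ker (ρ u - 1))
    (fun h => hm₀ (h.le (show m₀ ∈ _ from ⟨(hsub _ _).mpr hma, (hsub _ _).mpr hmu⟩)))
    (fun w hw => hw.1) (fun w hw => ⟨by
      change (ρ a - 1) (c w) = 0
      rw [hcc', hw.1, map_zero], by
      change (ρ u - 1) (c w) = 0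
      rw [hcc', hw.2, map_zero]⟩)
  have hau : ∀ m, (ρ a - 1) m = 0 → (ρ u - 1) m = 0 := fun m hm => by
    obtain ⟨w₁, h₁, w₂, h₂, rfl⟩ := hsp m
    have h4 : (ρ a - 1) w₁ = 0 := h₁.1
    rw [map_add, h4, zero_add] at hm
    rw [hfix _ ((hsub _ _).mp hm) ((hsub _ _).mp (hbb _)), add_zero]
    exact h₁.2
  have hua : ∀ m, (ρ u - 1) m = 0 → (ρ a - 1) m = 0 := fun m hm => by
    obtain ⟨w₁, h₁, w₂, h₂, rfl⟩ := hsp m
    by_cases hw : w₂ = 0
    · rw [hw, map_zero, add_zero]; exact h₁.1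
    exfalso
    have h4 : (ρ u - 1) w₁ = 0 := h₁.2
    rw [map_add, h4, zero_add] at hm
    have hsp2 := span_of_inv ρ hab ha hb hirr
      (W := LinearMap.ker (ρ a - 1) ⊓ LinearMap.ker ((ρ u - 1) * (ρ b - 1)))
      (fun h => hw (h.le (show w₂ ∈ _ from ⟨h₂.1, LinearMap.mem_ker.mpr hm⟩)))
      (fun w hw => hw.1) (fun w hw => ⟨by
        change (ρ a - 1) (c w) = 0
        rw [hcc', hw.1, map_zero], by
        change (ρ u - 1) ((ρ b - 1) (c w)) = 0
        rw [hcc', hcc']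
        exact (congrArg c hw.2).trans (map_zero c)⟩)
    have h5 : ρ u - 1 = 0 := LinearMap.ext fun m => by
      obtain ⟨x₁, y₁, x₂, y₂, rfl⟩ := hsp2 m
      rw [map_add, hau _ y₁.1, zero_add]
      exact y₂.2
    rw [h5, zero_mul, mul_zero, add_zero] at k3
    exact hm₀ (by simpa using LinearMap.congr_fun k3 m₀)
  set A := ρ u - 1 with hA
  set B := ρ v - 1 with hB
  have hu' : ρ u = 1 + A := by rw [hA, add_sub_cancel]
  have hv' : ρ v = 1 + B := by rw [hB, add_sub_cancel]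
  obtain ⟨hABA, -⟩ := pair_ring (R := End (ZMod p) M) k1 k2 k3
  have hw : ∀ t s : ZMod p, t * s = 1 → ρ (u ^ t.val * v ^ s.val * u ^ t.val) = t • A + s • B := by
    intro t s hts
    rw [map_mul, map_mul, map_pow, map_pow, hu', hv', pow_quad' k1, pow_quad' k2]
    have : (1 + t • A) * (1 + s • B) * (1 + t • A) = 1 + t • A + t • A + s • B + (t * t) • (A * A) +
        (t * s) • (A * B + B * A) + (t * (t * s)) • (A * B * A) := by
      simp only [mul_add, add_mul, smul_add, mul_smul_comm, smul_mul_assoc, smul_smul, one_mul,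
        mul_one, mul_comm s t, mul_comm t (t * s)]
      abel_nf
    rw [this, k1, k3, hABA, hts]
    simp only [smul_zero, one_smul, mul_one, smul_neg]
    abel
  refine ⟨u, (u ^ (l : ZMod p).val * v ^ ((l⁻¹ : (ZMod p)ˣ) : ZMod p).val * u ^ (l : ZMod p).val) *
    (u ^ (-1 : ZMod p).val * v ^ (-1 : ZMod p).val * u ^ (-1 : ZMod p).val), fun m => ?_,
    fun e he => ?_⟩
  · exact (hsub _ _).mp (hua _ (LinearMap.congr_fun k1 m))
  have hAe : A e = 0 := hau e ((hsub _ _).mpr he)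
  have hABe : A (B e) = -e := by
    have := LinearMap.congr_fun k3 e
    rwa [LinearMap.add_apply, End.mul_apply, End.mul_apply, hAe, map_zero, add_zero] at this
  have hBB : B (B e) = 0 := LinearMap.congr_fun k2 e
  rw [map_mul ρ (_ * _ * u ^ _), hw _ _ (Units.mul_inv l), hw (-1) (-1) (by ring)]
  refine ⟨(hsub _ _).mp hAe, ?_, -B e, ?_, ?_⟩
  · simp only [End.mul_apply, LinearMap.add_apply, LinearMap.smul_apply, hAe, hABe, hBB, map_add,
      map_smul, map_neg, map_zero, smul_zero, zero_add, add_zero, neg_smul, one_smul, neg_neg,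
      smul_neg, neg_zero, LinearMap.neg_apply]
  · rw [hu', LinearMap.add_apply, map_neg A, hABe, neg_neg, add_comm]; rfl
  · simp only [End.mul_apply, LinearMap.add_apply, LinearMap.smul_apply, hAe, hABe, hBB, map_add,
      map_smul, map_neg, map_zero, smul_zero, zero_add, add_zero, neg_smul, one_smul, neg_neg,
      smul_neg, neg_zero, LinearMap.neg_apply]

end Mod

open H63 H67

variable {G : Type*} [Group G]

theorem borel_bot (hp : p ≠ 2) [Finite G] {U : Subgroup G} (hU : IsElementaryAbelian p U)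
    (h0 : U ≠ ⊥) {a b : G} (hE : closure {a, b} ≤ N[U])
    (ha : ∀ m ∈ U, ⁅a, ⁅a, m⁆⁆ = 1) (hb : ∀ m ∈ U, ⁅b, ⁅b, m⁆⁆ = 1)
    (hirr : ∀ W ≤ U, closure {a, b} ≤ N[W] → W = ⊥ ∨ W = U)
    (hfix : ∀ m ∈ U, ⁅a, m⁆ = 1 → ⁅b, m⁆ = 1 → m = 1) (l : (ZMod p)ˣ) :
    ∃ u ∈ closure ({a, b} : Set G), ∃ h ∈ closure ({a, b} : Set G), (∀ m ∈ U, ⁅a, ⁅u, m⁆⁆ = 1) ∧
      ∀ e ∈ U, ⁅a, e⁆ = 1 → ⁅u, e⁆ = 1 ∧ h * e * h⁻¹ = zp e (l : ZMod p) ∧
        ∃ f ∈ U, u * f * u⁻¹ = e * f ∧ h * f * h⁻¹ = zp f ((l⁻¹ : (ZMod p)ˣ) : ZMod p) := by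
  let _ : CommGroup U := { (inferInstance : Group U) with mul_comm := hU.1.is_comm.comm }
  set E := closure ({a, b} : Set G)
  let ψ : E →* MulAut U := H53.actHom U E.subtype fun e => hE e.2
  have hψ : ∀ (g : E) (w : U), (ψ g w : G) = g * w * (g : G)⁻¹ := fun _ _ => rfl
  obtain ⟨inst⟩ : Nonempty (Module (ZMod p) (Additive U)) :=
    ⟨AddCommGroup.zmodModule (fun v => Additive.toMul.injective (H53.pow_eq_one_of_elemAb hU _))⟩
  let ρ : Representation (ZMod p) E (Additive U) := H64.zmodRep ψ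
  have hρ : ∀ g (w : Additive U), ((ρ g w).toMul : G) = g * w.toMul * (g : G)⁻¹ := fun _ _ => rfl
  have hρ1 : ∀ g (w : Additive U), ((ρ g w - w).toMul : G) = ⁅(g : G), (w.toMul : G)⁆ :=
    fun g w => by rw [toMul_sub, div_eq_mul_inv, coe_mul, hρ, coe_inv, commutatorElement_def]
  have hext : ∀ w w' : Additive U, w = w' ↔ (w.toMul : G) = w'.toMul := fun w w' =>
    ⟨fun h => by rw [h], fun h => Additive.toMul.injective (Subtype.ext h)⟩
  have hfx : ∀ g (w : Additive U), ρ g w = w ↔ ⁅(g : G), (w.toMul : G)⁆ = 1 := fun g w => by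
    rw [hext, hρ, commutatorElement_def, mul_inv_eq_one]
  have hsm : ∀ (t : ZMod p) (w : Additive U), ((t • w).toMul : G) = zp (w.toMul : G) t :=
    fun t w => by
      conv_lhs => rw [← ZMod.natCast_zmod_val t, Nat.cast_smul_eq_nsmul, toMul_nsmul, coe_pow]
      rfl
  have hq : ∀ g : E, (∀ m ∈ U, ⁅(g : G), ⁅(g : G), m⁆⁆ = 1) → (ρ g - 1) * (ρ g - 1) = 0 :=
    fun g h => LinearMap.ext fun w => by
      change ρ g (ρ g w - w) - (ρ g w - w) = 0
      rw [sub_eq_zero, hfx, hρ1]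
      exact h _ w.toMul.2
  have : Nontrivial (Additive U) := (Subgroup.nontrivial_iff_ne_bot U).mpr h0
  obtain ⟨u, h, h1, h2⟩ := exists_borel hp ρ (H53.closure_pair_subtype a b) (hq _ ha) (hq _ hb)
    (fun W hW => by
      rcases hirr (W.toAddSubgroup.toSubgroup'.map U.subtype) (map_subtype_le _) (fun g hg => by
        refine mem_normalizer_fintype ?_
        rintro _ ⟨w, hw, rfl⟩
        exact ⟨_, hW ⟨g, hg⟩ (Additive.ofMul w) hw, rfl⟩) with h | h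
      · have := (map_eq_bot_iff_of_injective _ U.subtype_injective).mp h
        exact Or.inl (eq_bot_iff.mpr fun x hx => this.le (show x.toMul ∈ _ from hx))
      · refine Or.inr (eq_top_iff.mpr fun x _ => ?_)
        obtain ⟨y, hy, hxy⟩ := h.ge x.toMul.2
        obtain rfl : y = x.toMul := Subtype.ext hxy
        exact hy)
    (fun m h1 h2 => (hext _ _).mpr (hfix _ m.toMul.2 ((hfx _ _).mp h1) ((hfx _ _).mp h2))) l
  refine ⟨u, u.2, h, h.2, fun m hm => ?_, fun e he hae => ?_⟩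
  · have := (hfx _ _).mp (h1 (Additive.ofMul ⟨m, hm⟩))
    rwa [hρ1] at this
  obtain ⟨h3, h4, f, h5, h6⟩ := h2 (Additive.ofMul ⟨e, he⟩) ((hfx _ _).mpr hae)
  rw [hext, hρ, hsm] at h4 h6
  exact ⟨(hfx _ _).mp h3, h4, f.toMul, f.toMul.2, (hext _ _).mp h5, h6⟩

/-- the standard generators of the Borel subgroup acting on a pair of elements -/
structure BP (l : (ZMod p)ˣ) (e f u h : G) : Prop where
  ne : e ≠ 1
  pe : e ^ p = 1
  pf : f ^ p = 1
  comm : ⁅e, f⁆ = 1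
  ue : ⁅u, e⁆ = 1
  uf : u * f * u⁻¹ = e * f
  he : h * e * h⁻¹ = zp e (l : ZMod p)
  hf : h * f * h⁻¹ = zp f ((l⁻¹ : (ZMod p)ˣ) : ZMod p)

theorem comm_mul {V : Subgroup G} (hV : IsMulCommutative V) {g x y : G} (hg : g ∈ N[V])
    (hx : x ∈ V) (hy : y ∈ V) : ⁅g, x * y⁆ = ⁅g, x⁆ * ⁅g, y⁆ := by
  have h1 : ⁅g, y⁆ ∈ V := mul_mem (H67.conj_mem_of_mem_normalizer hg hy) (inv_mem hy)
  rw [commutatorElement_mul_right', comm_of_isMulCommutative hV hx h1, mul_inv_cancel_right]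

theorem comm_inv {V : Subgroup G} (hV : IsMulCommutative V) {g x : G} (hg : g ∈ N[V])
    (hx : x ∈ V) : ⁅g, x⁻¹⁆ = ⁅g, x⁆⁻¹ :=
  eq_inv_of_mul_eq_one_left (by
    rw [← comm_mul hV hg (inv_mem hx) hx, inv_mul_cancel, commutatorElement_one_right])

theorem comm_mem {V : Subgroup G} {g x : G} (hg : g ∈ N[V]) (hx : x ∈ V) : ⁅g, x⁆ ∈ V :=
  mul_mem (H67.conj_mem_of_mem_normalizer hg hx) (inv_mem hx)

theorem mem_norm_of_comm [Finite G] {V : Subgroup G} {g : G} (h : ∀ x ∈ V, ⁅g, x⁆ ∈ V) :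
    g ∈ N[V] := mem_normalizer_fintype fun x hx => by
  have := mul_mem (h x hx) hx
  rwa [commutatorElement_def, inv_mul_cancel_right] at this

theorem comm_eq_one_iff {g x : G} : ⁅g, x⁆ = 1 ↔ g ∈ C1[x] := by
  rw [mem_centralizer_singleton_iff, commutatorElement_eq_one_iff_mul_comm]

theorem pair_le {a b : G} {K : Subgroup G} (ha : a ∈ K) (hb : b ∈ K) : closure {a, b} ≤ K :=
  (closure_le K).mpr (by rintro _ (rfl | rfl); exacts [ha, hb])

theorem mem_pair_left (a b : G) : a ∈ closure ({a, b} : Set G) := subset_closure (by simp)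

theorem mem_pair_right (a b : G) : b ∈ closure ({a, b} : Set G) := subset_closure (by simp)

/-- `g` acts trivially on `A` and `R / A`. -/
theorem pow_cent {R A : Subgroup G} {g : G} (h1 : ∀ x ∈ R, ⁅g, x⁆ ∈ A) (h2 : ∀ x ∈ A, ⁅g, x⁆ = 1)
    {x : G} (hx : x ∈ R) (n : ℕ) : g ^ n * x * (g ^ n)⁻¹ = ⁅g, x⁆ ^ n * x := by
  induction n with
  | zero => simp
  | succ n ih =>
    have h3 : Commute g ⁅g, x⁆ := commutatorElement_eq_one_iff_commute.mp (h2 _ (h1 x hx))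
    calc g ^ (n + 1) * x * (g ^ (n + 1))⁻¹ = g * (g ^ n * x * (g ^ n)⁻¹) * g⁻¹ := by
          rw [pow_succ']; group
      _ = ⁅g, x⁆ ^ n * (⁅g, x⁆ * x) := by
          rw [ih, ← mul_assoc, (h3.pow_right n).eq, commutatorElement_def g x]; group
      _ = _ := by rw [pow_succ, mul_assoc]

theorem pMod_cent [Finite G] {R A K : Subgroup G} (hA : IsPGroup p A)
    (h1 : ∀ g ∈ K, ∀ x ∈ R, ⁅g, x⁆ ∈ A) (h2 : ∀ g ∈ K, ∀ x ∈ A, ⁅g, x⁆ = 1) :
    H83.PMod p K C[R] := fun g hg => by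
  obtain ⟨k, hk⟩ := IsPGroup.iff_card.mp hA
  refine ⟨k, mem_centralizer_iff.mpr fun x hx => ?_⟩
  have h3 := pow_cent (h1 g hg) (h2 g hg) hx (p ^ k)
  have h4 : ⁅g, x⁆ ^ p ^ k = 1 := by
    rw [← hk]
    exact congrArg Subtype.val (pow_card_eq_one' (x := (⟨_, h1 g hg x hx⟩ : A)))
  rw [h4, one_mul, mul_inv_eq_iff_eq_mul] at h3
  exact h3.symm

end Cfsg.Agent.H51.ZF
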