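import Mathlib
import Cfsg.Agent.H51.ZF1

/-! The local lemma: a quadratic element with a uniqueness subgroup yields a Borel datum. -/

set_option autoImplicit false

namespace Cfsg.Agent.H51.ZF

open Subgroup H63 H67
open scoped commutatorElement

variable {p : ℕ} [Fact p.Prime] {G : Type*} [Group G]

theorem conj_comm (g x y : G) : g * ⁅x, y⁆ * g⁻¹ = ⁅g * x * g⁻¹, g * y * g⁻¹⁆ := by
  simp only [commutatorElement_def]; group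

theorem norm_stabMod [Finite G] {A K W : Subgroup G} (h1 : A ≤ N[K]) (h2 : A ≤ N[W]) :
    A ≤ N[stabMod K W] := fun g hg => mem_normalizer_fintype fun x hx => by
  refine mem_stabMod.mpr ⟨mul_mem (mul_mem (h2 hg) (mem_stabMod.mp hx).1) (inv_mem (h2 hg)),
    fun k hk => ?_⟩
  have h3 := H67.conj_mem_of_mem_normalizer (h2 hg)
    ((mem_stabMod.mp hx).2 _ (H67.conj_mem_of_mem_normalizer' (h1 hg) hk))
  rw [conj_comm] at h3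
  simpa [mul_assoc] using h3

theorem quad_cj {V E : Subgroup G} {a g : G} (hg : g ∈ N[V]) (hE : g ∈ N[E])
    (ha : ∀ m ∈ V, ⁅a, ⁅a, m⁆⁆ ∈ E) : ∀ m ∈ V, ⁅g * a * g⁻¹, ⁅g * a * g⁻¹, m⁆⁆ ∈ E := by
  intro m hm
  have h3 := H67.conj_mem_of_mem_normalizer hE (ha _ (H67.conj_mem_of_mem_normalizer' hg hm))
  rw [conj_comm, conj_comm] at h3
  simpa [mul_assoc] using h3

theorem BP.of_cent {l : (ZMod p)ˣ} {e f u h j j' : G} {U : Subgroup G} (H : BP l e f u h)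
    (he : e ∈ U) (hf : f ∈ U) (hj : j ∈ C[U]) (hj' : j' ∈ C[U]) : BP l e f (j * u) (j' * h) := by
  have h1 : ∀ k x y : G, k * x * y * (k * x)⁻¹ = k * (x * y * x⁻¹) * k⁻¹ := fun _ _ _ => by group
  refine ⟨H.ne, H.pe, H.pf, H.comm, ?_, ?_, ?_, ?_⟩
  · have := H.ue
    rw [commutatorElement_def, mul_inv_eq_one] at this ⊢
    rw [h1, this, conj_eq_of_mem_centralizer hj he]
  · rw [h1, H.uf, conj_eq_of_mem_centralizer hj (mul_mem he hf)]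
  · rw [h1, H.he]; exact conj_eq_of_mem_centralizer hj' (pow_mem he _)
  · rw [h1, H.hf]; exact conj_eq_of_mem_centralizer hj' (pow_mem hf _)

theorem isPGroup_zpowers {a : G} (h : ∃ k, a ^ p ^ k = 1) : IsPGroup p (zpowers a) := by
  obtain ⟨k, hk⟩ := h
  exact IsPGroup.of_card_dvd_pow (n := k) (by
    rw [Nat.card_zpowers]; exact orderOf_dvd_of_pow_eq_one hk)

theorem core (hp : p ≠ 2) [Finite G] {X V Y M : Subgroup G} {a b y : G} (hX : IsPGroup p X)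
    (hVX : V ≤ X) (hc : X ≤ C[V]) (hYV : Y ≤ V) (hΓX : closure {a, b} ≤ N[X])
    (hΓV : closure {a, b} ≤ N[V]) (hap : ∃ k, a ^ p ^ k = 1) (ha : ∀ m ∈ V, ⁅a, ⁅a, m⁆⁆ = 1)
    (hy : y ∈ closure ({a, b} : Set G)) (hb : y * a * y⁻¹ = b) (haY : ∀ m ∈ Y, ⁅a, m⁆ = 1)
    (h1 : ∀ K ≤ V, Y ≤ K → closure {a, b} ≤ N[K] → V ≤ K)
    (h2 : ∀ K ≤ V, K ≠ ⊥ → closure {a, b} ≤ N[K] → ∀ m ∈ Y, ⁅b, m⁆ ∈ K)
    (h3 : ∃ m ∈ Y, ⁅b, m⁆ ≠ 1) (hXM : X ≤ M)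
    (hM : ∀ g ∈ closure ({a, b} : Set G), g ∉ M → closure {a, b} ≤ closure {a, g⁻¹ * a * g})
    (l : (ZMod p)ˣ) :
    ∃ (T : Subgroup G) (e f u h : G), IsPGroup p T ∧ X ≤ T ∧ a ∈ T ∧
      T ≤ M ⊓ (closure {a, b} ⊔ X) ∧ h ∈ M ⊓ (closure {a, b} ⊔ X) ∧ h ∈ N[T] ∧ e ∈ Y ∧ f ∈ V ∧
      u ∈ T ∧ BP l e f u h := by
  set Γ := closure ({a, b} : Set G) with hΓ
  have haΓ : a ∈ Γ := mem_pair_left a b
  have hbΓ : b ∈ Γ := mem_pair_right a b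
  have hV : IsMulCommutative V := isMulCommutative_iff_le_centralizer.mpr (hVX.trans hc)
  have hb2 : ∀ m ∈ V, ⁅b, ⁅b, m⁆⁆ = 1 := fun m hm => hb ▸ mem_bot.mp
    (quad_cj (hΓV hy) (le_normalizer_bot ⊤ (mem_top y)) (fun m hm => mem_bot.mpr (ha m hm)) m hm)
  obtain ⟨e, heY, he⟩ := h3
  have hC : V ⊓ C[Γ] = ⊥ := by
    by_contra h0
    have h4 := h2 _ inf_le_left h0 (le_normalizer_of_le_centralizer' inf_le_right)
    have h5 : ∀ x ∈ V ⊓ C[Γ], ∀ g ∈ Γ, ⁅g, x⁆ = 1 := fun x hx g hg =>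
      commutatorElement_eq_one_iff_mul_comm.mpr (mem_centralizer_iff.mp hx.2 g hg)
    have h6 : ∀ x ∈ Y ⊔ V ⊓ C[Γ], ⁅a, x⁆ = 1 ∧ ⁅b, x⁆ ∈ V ⊓ C[Γ] := fun x hx => by
      obtain ⟨s, hs, t, ht, rfl⟩ := (mem_sup_of_le_normalizer (le_normalizer_of_le_centralizer
        (le_cent_of_comm hV hYV inf_le_left))).mp hx
      rw [comm_mul hV (hΓV haΓ) (hYV hs) ht.1, comm_mul hV (hΓV hbΓ) (hYV hs) ht.1, haY s hs,
        h5 t ht a haΓ, h5 t ht b hbΓ, mul_one, mul_one]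
      exact ⟨rfl, h4 s hs⟩
    have h7 := h1 _ (sup_le hYV inf_le_left) le_sup_left (pair_le
      (mem_norm_of_comm fun x hx => by rw [(h6 x hx).1]; exact one_mem _)
      (mem_norm_of_comm fun x hx => mem_sup_right (h6 x hx).2))
    have h8 : a ∈ C[V] := mem_centralizer_iff.mpr fun x hx =>
      (commutatorElement_eq_one_iff_mul_comm.mp (h6 x (h7 hx)).1).symm
    have h9 : b ∈ C[V] := hb ▸ H67.conj_mem_of_mem_normalizer
      (normalizer_le_normalizer_centralizer V (hΓV hy)) h8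
    exact he (commutatorElement_eq_one_iff_mul_comm.mpr (mem_centralizer_iff.mp h9 e (hYV heY)).symm)
  have hC' : ∀ m ∈ V, Γ ≤ C1[m] → m = 1 := fun m hm h =>
    mem_bot.mp (hC.le ⟨hm, mem_centralizer_iff_le.mpr h⟩)
  have hfix : ∀ m ∈ V, ⁅a, m⁆ = 1 → ⁅b, m⁆ = 1 → m = 1 := fun m hm h h' =>
    hC' m hm (pair_le (comm_eq_one_iff.mp h) (comm_eq_one_iff.mp h'))
  have he1 : e ≠ 1 := fun h => he (by rw [h, commutatorElement_one_right])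
  obtain ⟨U, hU, hUV⟩ := exists_minNormal (ne_bot_of_mem (hYV heY) he1) hΓV
  have hUe := minnormal_pgroup_abelem Fact.out hU (hX.to_le (hUV.trans hVX))
  have hinj : ∀ x ∈ V, ⁅a, x⁆ = 1 → ∀ z ∈ V, ⁅a, z⁆ = 1 → ⁅a, ⁅b, x⁆⁆ = ⁅a, ⁅b, z⁆⁆ → x = z := by
    intro x hx hax z hz haz h
    have h4 := mul_mem hx (inv_mem hz)
    refine mul_inv_eq_one.mp (hfix _ h4 ?_ (hfix _ (comm_mem (hΓV hbΓ) h4) ?_ (hb2 _ h4)))
    · rw [comm_mul hV (hΓV haΓ) hx (inv_mem hz), comm_inv hV (hΓV haΓ) hz, hax, haz, inv_one,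
        mul_one]
    · have h5 := comm_mem (hΓV hbΓ) hz
      rw [comm_mul hV (hΓV hbΓ) hx (inv_mem hz), comm_inv hV (hΓV hbΓ) hz,
        comm_mul hV (hΓV haΓ) (comm_mem (hΓV hbΓ) hx) (inv_mem h5), comm_inv hV (hΓV haΓ) h5, h,
        mul_inv_cancel]
  have heU : e ∈ U := by
    have hm : Set.MapsTo (fun x => ⁅a, ⁅b, x⁆⁆) {x | x ∈ U ∧ ⁅a, x⁆ = 1} {x | x ∈ U ∧ ⁅a, x⁆ = 1} :=
      fun x hx => ⟨comm_mem (hU.norm haΓ) (comm_mem (hU.norm hbΓ) hx.1),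
        ha _ (comm_mem (hΓV hbΓ) (hUV hx.1))⟩
    obtain ⟨x, hx, hxe⟩ := (((Set.toFinite _).injOn_iff_bijOn_of_mapsTo hm).mp
      (fun x hx z hz h => hinj x (hUV hx.1) hx.2 z (hUV hz.1) hz.2 h)).surjOn
      (show ⁅a, ⁅b, e⁆⁆ ∈ _ from ⟨comm_mem (hU.norm haΓ) (h2 U hUV hU.ne_bot hU.norm e heY),
        ha _ (comm_mem (hΓV hbΓ) (hYV heY))⟩)
    exact hinj x (hUV hx.1) hx.2 e (hYV heY) (haY e heY) hxe ▸ hx.1
  obtain ⟨u, hu, h, hh, k1, k2⟩ := borel_bot hp hUe hU.ne_bot hU.norm (fun m hm => ha m (hUV hm))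
    (fun m hm => hb2 m (hUV hm)) (fun W hW hn => hU.eq_bot_or_eq hW hn)
    (fun m hm => hfix m (hUV hm)) l
  obtain ⟨k3, k4, f, hf, k5, k6⟩ := k2 e heU (haY e heY)
  have hbp : BP l e f u h := ⟨he1, hUe.2 e heU, hUe.2 f hf, commutatorElement_eq_one_iff_mul_comm.mpr
    (comm_of_isMulCommutative hUe.1 heU hf), k3, k5, k4, k6⟩
  have hXU : X ≤ C[U] := hc.trans (centralizer_anti hUV)
  have hGU : Γ ⊔ X ≤ N[U] := sup_le hU.norm (le_normalizer_of_le_centralizer hXU)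
  have hR : ∀ x, x ∈ U ⊓ C1[a] ↔ x ∈ U ∧ ⁅a, x⁆ = 1 := fun x => by
    rw [mem_inf, comm_eq_one_iff, mem_centralizer_singleton_comm]
  set Δ := (Γ ⊔ X) ⊓ C[U ⊓ C1[a]] ⊓ stabMod U (U ⊓ C1[a]) with hΔ
  have hΔm : ∀ g ∈ Γ ⊔ X, (∀ x ∈ U, ⁅a, x⁆ = 1 → ⁅g, x⁆ = 1) → (∀ x ∈ U, ⁅a, ⁅g, x⁆⁆ = 1) →
      g ∈ Δ := fun g hg j1 j2 => by
    have j3 : g ∈ C[U ⊓ C1[a]] := mem_centralizer_iff.mpr fun x hx =>
      (commutatorElement_eq_one_iff_mul_comm.mp (j1 x hx.1 ((hR x).mp hx).2)).symm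
    exact ⟨⟨hg, j3⟩, mem_stabMod.mpr ⟨centralizer_le_normalizer _ j3,
      fun x hx => (hR _).mpr ⟨comm_mem (hGU hg) hx, j2 x hx⟩⟩⟩
  have hXΔ : X ⊔ zpowers a ≤ Δ := by
    refine sup_le (fun g hg => ?_) (zpowers_le.mpr (hΔm a (mem_sup_left haΓ) (fun _ _ h => h)
      fun x hx => ha x (hUV hx)))
    have j1 : ∀ x ∈ U, ⁅g, x⁆ = 1 := fun x hx =>
      commutatorElement_eq_one_iff_mul_comm.mpr (mem_centralizer_iff.mp (hXU hg) x hx).symm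
    exact hΔm g (mem_sup_right hg) (fun x hx _ => j1 x hx) fun x hx => by
      rw [j1 x hx, commutatorElement_one_right]
  obtain ⟨T, hT, hXT⟩ := H83.exists_isSylowIn_ge hXΔ
    (IsPGroup.to_sup_of_normal_left' hX (isPGroup_zpowers hap) (zpowers_le.mpr (hΓX haΓ)))
  have hΔG : Δ ≤ Γ ⊔ X := inf_le_left.trans inf_le_left
  have hJ : Δ ≤ N[(Γ ⊔ X) ⊓ C[U]] := hΔG.trans (inf_centralizer_normalIn hGU).norm
  have hΔJ := hT.le_sup_of_pMod hJ ((pMod_cent (K := Δ) (A := U ⊓ C1[a]) (hX.to_le (inf_le_left.trans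
    (hUV.trans hVX))) (fun g hg => (mem_stabMod.mp hg.2).2) (fun g hg x hx =>
      commutatorElement_eq_one_iff_mul_comm.mpr
        (mem_centralizer_iff.mp hg.1.2 x hx).symm)).inf_of_le hΔG)
  have hdec : ∀ g ∈ Δ, ∃ j ∈ (Γ ⊔ X) ⊓ C[U], j * g ∈ T := fun g hg => by
    obtain ⟨j, hj, t, ht, rfl⟩ := (mem_sup_of_le_normalizer' (hT.le.trans hJ)).mp (hΔJ hg)
    exact ⟨j⁻¹, inv_mem hj, by rwa [inv_mul_cancel_left]⟩
  obtain ⟨j, hj, hju⟩ := hdec u (hΔm u (mem_sup_left hu) (fun x hx h => (k2 x hx h).1) k1)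
  have hhR : h ∈ N[U ⊓ C1[a]] := mem_normalizer_fintype fun x hx => by
    rw [(k2 x hx.1 ((hR x).mp hx).2).2.1]
    exact pow_mem hx _
  have hhΔ : zpowers h ≤ N[Δ] := by
    have j1 : zpowers h ≤ Γ ⊔ X := zpowers_le.mpr (mem_sup_left hh)
    have j2 := zpowers_le.mpr hhR
    exact le_normalizer_inf (le_normalizer_inf (le_normalizer_of_le j1)
      (le_normalizer_centralizer j2)) (norm_stabMod (j1.trans hGU) j2)
  obtain ⟨δ, hδ, n, hn, hδn⟩ := hT.frattini (hhΔ (mem_zpowers h))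
  obtain ⟨j', hj', hjδ⟩ := hdec δ hδ
  have hbp' := hbp.of_cent heU hf hj.2 hj'.2
  have hmem : ∀ g ∈ Γ ⊔ X, ⁅a, g * e * g⁻¹⁆ = 1 → g ∈ M ⊓ (Γ ⊔ X) := fun g hg h0 => by
    refine ⟨?_, hg⟩
    obtain ⟨γ, hγ, x, hx, rfl⟩ := (mem_sup_of_le_normalizer hΓX).mp hg
    refine mul_mem ?_ (hXM hx)
    by_contra hγM
    refine he1 (hC' e (hYV heY) ((hM γ hγ hγM).trans (pair_le (comm_eq_one_iff.mp (haY e heY))
      (comm_eq_one_iff.mp ?_))))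
    have j1 : γ * x * e * (γ * x)⁻¹ = γ * e * γ⁻¹ := by
      conv_rhs => rw [← conj_eq_of_mem_centralizer (hXU hx) heU]
      group
    have j2 := conj_comm γ⁻¹ a (γ * e * γ⁻¹)
    rw [← j1, h0, j1] at j2
    simpa [mul_assoc] using j2.symm
  have heR : e ∈ U ⊓ C1[a] := (hR e).mpr ⟨heU, haY e heY⟩
  refine ⟨T, e, f, j * u, j' * h, hT.isPGroup, le_sup_left.trans hXT,
    hXT (mem_sup_right (mem_zpowers a)), fun t ht => hmem t (hΔG (hT.le ht)) ?_,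
    hmem _ (mul_mem hj'.1 (mem_sup_left hh)) ?_, ?_, heY, hUV hf, hju, hbp'⟩
  · rw [conj_eq_of_mem_centralizer (hT.le ht).1.2 heR]; exact haY e heY
  · rw [hbp'.he]; exact ((hR _).mp (pow_mem heR _)).2
  · rw [hδn, ← mul_assoc]; exact mul_mem (le_normalizer hjδ) hn

/-- a Borel datum modulo `N` -/
structure Dat (l : (ZMod p)ˣ) (N : Subgroup G) (e f u h : G) : Prop where
  en : e ∈ N[N]
  fn : f ∈ N[N]
  un : u ∈ N[N]
  hn : h ∈ N[N]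
  ne : e ∉ N
  pe : e ^ p ∈ N
  pf : f ^ p ∈ N
  comm : ⁅e, f⁆ ∈ N
  ue : ⁅u, e⁆ ∈ N
  uf : u * f * u⁻¹ * (e * f)⁻¹ ∈ N
  he : h * e * h⁻¹ * (zp e (l : ZMod p))⁻¹ ∈ N
  hf : h * f * h⁻¹ * (zp f ((l⁻¹ : (ZMod p)ˣ) : ZMod p))⁻¹ ∈ N

theorem dat_iff {l : (ZMod p)ˣ} {N : Subgroup G} {e f u h : G} (he : e ∈ N[N]) (hf : f ∈ N[N])
    (hu : u ∈ N[N]) (hh : h ∈ N[N]) :
    Dat l N e f u h ↔ BP l (coset N e) (coset N f) (coset N u) (coset N h) := by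
  have h1 : ∀ x ∈ N[N], ∀ y ∈ N[N], x * y * x⁻¹ ∈ N[N] := fun x hx y hy =>
    mul_mem (mul_mem hx hy) (inv_mem hx)
  have h2 : ∀ x ∈ N[N], ∀ y ∈ N[N], (⁅coset N x, coset N y⁆ = 1 ↔ ⁅x, y⁆ ∈ N) := fun x hx y hy => by
    rw [← coset_commutator hx hy]
    exact coset_eq_one_iff (mul_mem (h1 x hx y hy) (inv_mem hy))
  have h3 : ∀ x ∈ N[N], (coset N x ^ p = 1 ↔ x ^ p ∈ N) := fun x hx => by
    rw [← coset_pow hx, coset_eq_one_iff (pow_mem hx _)]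
  have h4 : ∀ x ∈ N[N], ∀ t : ZMod p, (coset N h * coset N x * (coset N h)⁻¹ = zp (coset N x) t ↔
      h * x * h⁻¹ * (zp x t)⁻¹ ∈ N) := fun x hx t => by
    rw [← coset_conj hh hx, zp, ← coset_pow hx, coset_eq_iff' (h1 h hh x hx) (pow_mem hx _), zp]
  have h5 : coset N u * coset N f * (coset N u)⁻¹ = coset N e * coset N f ↔
      u * f * u⁻¹ * (e * f)⁻¹ ∈ N := by
    rw [← coset_conj hu hf, ← coset_mul he hf, coset_eq_iff' (h1 u hu f hf) (mul_mem he hf)]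
  exact ⟨fun H => ⟨(coset_eq_one_iff he).not.mpr H.ne, (h3 e he).mpr H.pe, (h3 f hf).mpr H.pf,
      (h2 e he f hf).mpr H.comm, (h2 u hu e he).mpr H.ue, h5.mpr H.uf, (h4 e he _).mpr H.he,
      (h4 f hf _).mpr H.hf⟩,
    fun H => ⟨he, hf, hu, hh, (coset_eq_one_iff he).not.mp H.ne, (h3 e he).mp H.pe,
      (h3 f hf).mp H.pf, (h2 e he f hf).mp H.comm, (h2 u hu e he).mp H.ue, h5.mp H.uf,
      (h4 e he _).mp H.he, (h4 f hf _).mp H.hf⟩⟩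

theorem Dat.map {G' : Type*} [Group G'] {l : (ZMod p)ˣ} {N : Subgroup G} {e f u h : G}
    (H : Dat l N e f u h) (φ : G →* G') (hφ : Function.Injective φ) :
    Dat l (N.map φ) (φ e) (φ f) (φ u) (φ h) := by
  have h1 : ∀ x ∈ N[N], φ x ∈ N[N.map φ] := fun x hx =>
    H67.map_le_normalizer_map φ le_rfl (mem_map_of_mem φ hx)
  refine ⟨h1 _ H.en, h1 _ H.fn, h1 _ H.un, h1 _ H.hn,
    fun h => H.ne ((mem_map_iff_mem hφ).mp h), ?_, ?_, ?_, ?_, ?_, ?_, ?_⟩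
  · simpa only [map_pow] using mem_map_of_mem φ H.pe
  · simpa only [map_pow] using mem_map_of_mem φ H.pf
  · simpa only [map_commutatorElement] using mem_map_of_mem φ H.comm
  · simpa only [map_commutatorElement] using mem_map_of_mem φ H.ue
  · simpa only [map_mul, map_inv] using mem_map_of_mem φ H.uf
  · simpa only [zp, map_mul, map_inv, map_pow] using mem_map_of_mem φ H.he
  · simpa only [zp, map_mul, map_inv, map_pow] using mem_map_of_mem φ H.hf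

theorem quo_pair {N : Subgroup G} {a b : G} (ha : a ∈ N[N]) (hb : b ∈ N[N]) :
    closure {a, b} /ᵍ N = closure {coset N a, coset N b} := by
  have h1 : ∀ {H : Type _} [Group H] (x y : H), closure {x, y} = zpowers x ⊔ zpowers y :=
    fun x y => by rw [zpowers_eq_closure, zpowers_eq_closure, ← Subgroup.closure_union]; rfl
  rw [h1, h1, quo_sup (zpowers_le.mpr ha) (zpowers_le.mpr hb), quo_zpowers ha, quo_zpowers hb]

theorem le_of_le_sup_comm [Finite G] {X V Y : Subgroup G} (hX : IsPGroup p X) (hVX : V ≤ X)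
    (hYV : Y ≤ V) (hn : X ≤ N[Y]) (hn' : X ≤ N[V]) (h : V ≤ Y ⊔ ⁅V, X⁆) : V ≤ Y := by
  have h1 : ⁅V, X⁆ ≤ V := commutator_le_of_norm_left hn'
  rw [← quo_eq_bot_iff (hVX.trans hn)]
  refine eq_bot_of_nil_of_commutator_eq (quo_isPGroup Y hX).isNilpotent (quo_mono Y hVX) le_rfl ?_
  rw [← quo_commutator (hVX.trans hn) hn]
  exact le_antisymm (quo_mono Y h1)
    ((quo_le_quo_iff (hVX.trans hn) (h1.trans (hVX.trans hn))).mpr h)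

theorem local_lemma (hp : p ≠ 2) [Finite G] {X Y E L : Subgroup G} [E.Normal] {a : G}
    (hX : IsPGroup p X) (hEY : E ≤ Y) (hYX : Y ≤ X) (hXY : X ≤ N[Y]) (hLX : L ≤ N[X])
    (hL : ¬ L ≤ N[Y]) (haL : a ∈ L) (hap : ∃ k, a ^ p ^ k = 1)
    (ha : ∀ m ∈ X, ⁅a, ⁅a, m⁆⁆ ∈ E) (haY : ∀ m ∈ Y, ⁅a, m⁆ ∈ E)
    (hU : ∀ g ∈ L, g * a * g⁻¹ ∈ N[Y] → g ∈ N[Y]) (l : (ZMod p)ˣ) :
    ∃ (T N : Subgroup G) (e f u h : G), IsPGroup p T ∧ X ≤ T ∧ a ∈ T ∧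
      T ≤ N[Y] ⊓ (L ⊔ X) ∧ h ∈ N[Y] ⊓ (L ⊔ X) ∧ h ∈ N[T] ∧ N ≤ X ∧ e ∈ Y ∧ f ∈ X ∧
      u ∈ T ∧ Dat l N e f u h := by
  obtain ⟨Γ, hΓL, ⟨haΓ, hΓ⟩, hmin⟩ :=
    exists_minimal_le (fun K => a ∈ K ∧ ¬ K ≤ N[Y]) (H := L) ⟨haL, hL⟩
  have hgen : ∀ g ∈ Γ, g ∉ N[Y] → closure {a, g * a * g⁻¹} = Γ := fun g hg hn =>
    hmin _ ⟨mem_pair_left _ _, fun h => hn (hU g (hΓL hg) (h (mem_pair_right _ _)))⟩
      (pair_le haΓ (mul_mem (mul_mem hg haΓ) (inv_mem hg)))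
  obtain ⟨y, hy, hyn⟩ := SetLike.not_le_iff_exists.mp hΓ
  set b := y * a * y⁻¹ with hb
  have hab := hgen y hy hyn
  have hbΓ : b ∈ Γ := hab ▸ mem_pair_right _ _
  have hΓX := hΓL.trans hLX
  obtain ⟨V, hVX, ⟨hYV, hΓV, hXV⟩, hVmin⟩ :=
    exists_minimal_le (fun K => Y ≤ K ∧ Γ ≤ N[K] ∧ X ≤ N[K]) (H := X) ⟨hYX, hΓX, le_normalizer⟩
  have hVle : ∀ K, Y ≤ K → Γ ≤ N[K] → X ≤ N[K] → V ≤ K := fun K h1 h2 h3 =>
    (hVmin (V ⊓ K) ⟨le_inf hYV h1, le_normalizer_inf hΓV h2, le_normalizer_inf hXV h3⟩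
      inf_le_left).ge.trans inf_le_right
  have hE : ∀ A : Subgroup G, A ≤ N[E] := fun A => le_normalizer_of_normal
  have haN : a ∈ N[Y] := mem_norm_of_comm fun x hx => hEY (haY x hx)
  have hV1 : ⁅V, X⁆ ⊔ E ≤ V := sup_le (commutator_le_of_norm_left hXV) (hEY.trans hYV)
  have hΓ1 : Γ ≤ N[⁅V, X⁆ ⊔ E] := le_normalizer_sup (le_normalizer_commutator hΓV hΓX) (hE _)
  have hXN : ∀ K, ⁅V, X⁆ ⊔ E ≤ K → K ≤ V → X ≤ N[K] := fun K h1 h2 =>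
    le_norm_of_commutator_le (le_sup_left.trans h1) h2
  have hb1 : ¬ ∀ m ∈ Y, ⁅b, m⁆ ∈ ⁅V, X⁆ ⊔ E := fun h => by
    have h1 : V ≤ Y ⊔ (⁅V, X⁆ ⊔ E) := by
      refine hVle _ le_sup_left ?_ (hXN _ le_sup_right (sup_le hYV hV1))
      rw [← hab]
      refine pair_le (le_normalizer_sup (zpowers_le.mpr haN) (zpowers_le.mpr (hΓ1 haΓ))
        (mem_zpowers a)) (mem_normalizer_of_cj_le ?_)
      rw [cj_sup, cj_eq_self (hΓ1 hbΓ)]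
      refine sup_le (cj_le_iff.mpr fun x hx => ?_) le_sup_right
      have := mul_mem (mem_sup_right (h x hx) : _ ∈ Y ⊔ (⁅V, X⁆ ⊔ E)) (mem_sup_left hx)
      rwa [commutatorElement_def, inv_mul_cancel_right] at this
    have h2 := le_of_le_sup_comm hX hVX hYV hXY hXV (h1.trans (sup_le le_sup_left
      (sup_le le_sup_right (hEY.trans le_sup_left))))
    exact hΓ (le_antisymm h2 hYV ▸ hΓV)
  obtain ⟨N, hN1, ⟨hNV, hΓN, hbN⟩, hNmax⟩ := exists_maximal_ge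
    (fun K => K ≤ V ∧ Γ ≤ N[K] ∧ ¬ ∀ m ∈ Y, ⁅b, m⁆ ∈ K) ⟨hV1, hΓ1, hb1⟩
  have hXN' := hXN N hN1 hNV
  have hEN : E ≤ N := le_sup_right.trans hN1
  have hVN := hVX.trans hXN'
  have hYN := hYV.trans hVN
  have hGN : Γ ⊔ X ≤ N[N] := sup_le hΓN hXN'
  have hq : Γ /ᵍ N = closure {coset N a, coset N b} := by
    rw [← hab]; exact quo_pair (hΓN haΓ) (hΓN hbΓ)
  have hcc : ∀ g ∈ Γ, ∀ m ∈ V, ⁅coset N g, coset N m⁆ = coset N ⁅g, m⁆ := fun g hg m hm =>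
    (coset_commutator (hΓN hg) (hVN hm)).symm
  have hpre : ∀ K ≤ V /ᵍ N, closure {coset N a, coset N b} ≤ N[K] →
      cosetpre N K ≤ V ∧ Γ ≤ N[cosetpre N K] := fun K h1 h2 =>
    ⟨(cosetpre_le_iff ⟨hNV, hVN⟩).mpr h1, le_norm_cosetpre hΓN (hq ▸ h2)⟩
  obtain ⟨T, e, f, u, h, k1, k2, k3, k4, k5, k6, k7, k8, k9, k10⟩ := core hp
    (X := X /ᵍ N) (V := V /ᵍ N) (Y := Y /ᵍ N) (M := (N[Y] ⊓ (Γ ⊔ X)) /ᵍ N) (a := coset N a)
    (b := coset N b) (y := coset N y) (quo_isPGroup N hX) (quo_mono N hVX)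
    (quo_cents_of_commutator_le (by rw [commutator_comm]; exact le_sup_left.trans hN1))
    (quo_mono N hYV) (hq ▸ quo_norms N hΓX) (hq ▸ quo_norms N hΓV)
    (hap.imp fun k hk => by rw [← coset_pow (hΓN haΓ), hk, coset_one])
    (fun m hm => by
      obtain ⟨x, hx, -, rfl⟩ := mem_quo.mp hm
      rw [hcc a haΓ x hx, hcc a haΓ _ (comm_mem (hΓV haΓ) hx)]
      exact coset_eq_one (hEN (ha x (hVX hx))))
    (hq ▸ coset_mem_quo (hΓN hy) hy) (coset_conj (hΓN hy) (hΓN haΓ)).symm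
    (fun m hm => by
      obtain ⟨x, hx, -, rfl⟩ := mem_quo.mp hm
      rw [hcc a haΓ x (hYV hx)]
      exact coset_eq_one (hEN (haY x hx)))
    (fun K h1 h2 h3 => (quo_le_iff hVN).mpr (hVle _ ((quo_le_iff hYN).mp h2) (hpre K h1 h3).2
      (hXN _ (hN1.trans (le_cosetpre K)) (hpre K h1 h3).1)))
    (fun K h1 h2 h3 m hm => by
      obtain ⟨x, hx, -, rfl⟩ := mem_quo.mp hm
      rw [hcc b hbΓ x (hYV hx)]
      by_contra h4
      have h5 := hNmax _ ⟨(hpre K h1 h3).1, (hpre K h1 h3).2,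
        fun h => h4 (mem_cosetpre.mp (h x hx)).2⟩ (le_cosetpre K)
      exact h2 (cosetpre_injective (h5.trans (cosetpre_bot N).symm)))
    (by
      push Not at hbN
      obtain ⟨x, hx, h1⟩ := hbN
      refine ⟨_, coset_mem_quo (hYN hx) hx, ?_⟩
      rw [hcc b hbΓ x (hYV hx)]
      exact (coset_eq_one_iff (hVN (comm_mem (hΓV hbΓ) (hYV hx)))).not.mpr h1)
    (quo_mono N (le_inf hXY le_sup_right))
    (fun g hg hgM => by
      rw [← hq] at hg ⊢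
      obtain ⟨x, hx, hxN, rfl⟩ := mem_quo.mp hg
      have h1 := hgen x⁻¹ (inv_mem hx) fun h =>
        hgM (coset_mem_quo hxN ⟨(Subgroup.inv_mem_iff _).mp h, mem_sup_left hx⟩)
      have h2 := coset_conj (inv_mem hxN) (hΓN haΓ)
      rw [coset_inv hxN, inv_inv (coset N x)] at h2
      rw [← h2, ← quo_pair (hΓN haΓ) (mul_mem (mul_mem (inv_mem hxN) (hΓN haΓ))
        (inv_mem (inv_mem hxN))), h1]) l
  have hNM : N ⊴ N[Y] ⊓ (Γ ⊔ X) :=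
    ⟨(hNV.trans hVX).trans (le_inf hXY le_sup_right), inf_le_right.trans hGN⟩
  have hML : N[Y] ⊓ (Γ ⊔ X) ≤ N[Y] ⊓ (L ⊔ X) := inf_le_inf_left _ (sup_le_sup_right hΓL _)
  obtain ⟨e, he, heN, rfl⟩ := mem_quo.mp k7
  obtain ⟨f, hf, hfN, rfl⟩ := mem_quo.mp k8
  obtain ⟨u, huN, rfl⟩ := exists_coset_eq u
  obtain ⟨h, hh, hhN, rfl⟩ := mem_quo.mp k5.1
  refine ⟨cosetpre N T, N, e, f, u, h, cosetpre_isPGroup (hX.to_le (hNV.trans hVX)) k1,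
    (quo_le_iff hXN').mp k2, mem_cosetpre.mpr ⟨hΓN haΓ, k3⟩,
    ((cosetpre_le_iff hNM).mpr (k4.trans inf_le_left)).trans hML, hML hh, ?_, hNV.trans hVX, he,
    hVX hf, mem_cosetpre.mpr ⟨huN, k9⟩, (dat_iff heN hfN huN hhN).mpr k10⟩
  refine le_norm_cosetpre (zpowers_le.mpr hhN) ?_ (mem_zpowers h)
  rw [quo_zpowers hhN]
  exact zpowers_le.mpr k6

end Cfsg.Agent.H51.ZF
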