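import Mathlib
import Cfsg.Agent.H51.ZF2
import Cfsg.Agent.H63.Frob

/-! Consequences of a Borel datum: `F(p)` is involved, and a rational subgroup of order `p`. -/

set_option autoImplicit false

namespace Cfsg.Agent.H51.ZF

open Subgroup H63 H67 Matrix
open scoped commutatorElement MatrixGroups

variable {p : ℕ} [Fact p.Prime] {G : Type*} [Group G]

theorem involves_of_natural (hp : p ≠ 2) [Finite G] {D : Subgroup SL(2, ZMod p)} (hD : -1 ∈ D)
    (θ : G →* D) (hθ : Function.Surjective θ) (ε : (Fin 2 → ZMod p) → G)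
    (hadd : ∀ w w', ε (w + w') = ε w * ε w') (hinj : ∀ w, ε w = 1 → w = 0)
    (hconj : ∀ g w, g * ε w * g⁻¹ = ε ((θ g).1.1 *ᵥ w)) :
    Involves (D.comap (H54.Aff.lin : qd p →* _)) G := by
  set z : D := ⟨-1, hD⟩ with hz
  have h0 : ε 0 = 1 := by
    have := hadd 0 0
    rwa [add_zero, left_eq_mul] at this
  have hneg : ∀ w, ε (-w) = (ε w)⁻¹ := fun w =>
    eq_inv_of_mul_eq_one_left (by rw [← hadd, neg_add_cancel, h0])
  have hpow : ∀ w (n : ℕ), ε (n • w) = ε w ^ n := fun w n => by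
    induction n with
    | zero => rw [zero_smul, h0, pow_zero]
    | succ n ih => rw [succ_nsmul, hadd, ih, pow_succ]
  have h2 : IsPGroup 2 (zpowers z) :=
    IsPGroup.of_card_dvd_pow (n := 1) (by
      rw [Nat.card_zpowers]; exact orderOf_dvd_of_pow_eq_one (Subtype.ext (by simp [hz])))
  have h2n : (zpowers z).Normal := ⟨fun n hn g => by
    obtain ⟨k, rfl⟩ := hn
    have : Commute g (z ^ k) :=
      Commute.zpow_right (Subtype.ext (Commute.neg_one_right g.1).eq) k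
    change g * z ^ k * g⁻¹ ∈ _
    rw [this.eq, mul_inv_cancel_right]
    exact zpow_mem (mem_zpowers _) k⟩
  obtain ⟨T, hT⟩ := H8.exists_isSylowIn 2 ((zpowers z).comap θ)
  have hTm := IsSylowIn.map_eq_of_comap hθ h2 hT
  obtain ⟨t, ht, htθ⟩ : z ∈ T.map θ := hTm.ge (mem_zpowers _)
  have hN : ∀ A, ∃ n ∈ normalizer (T : Set G), θ n = A := by
    intro A
    obtain ⟨g, rfl⟩ := hθ A
    obtain ⟨c, hc, n, hn, rfl⟩ := hT.frattini (g := g) (le_normalizer_of_normal (mem_top g))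
    obtain ⟨s, hs, hsc⟩ : θ c ∈ T.map θ := hTm.ge hc
    exact ⟨s * n, mul_mem (le_normalizer hs) hn, by rw [map_mul, map_mul, hsc]⟩
  have hNε : ∀ w, ε w ∈ normalizer (T : Set G) → w = 0 := by
    intro w hw
    have h3 : ε w * t * (ε w)⁻¹ * t⁻¹ ∈ T :=
      mul_mem ((mem_normalizer_iff.mp hw t).mp ht) (inv_mem ht)
    have h4 : ε w * t * (ε w)⁻¹ * t⁻¹ = ε (w + w) := by
      rw [mul_assoc, mul_assoc, ← mul_assoc t, ← hneg, hconj, htθ, hadd]
      congr 2
      change (-(1 : Matrix (Fin 2) (Fin 2) (ZMod p))) *ᵥ (-w) = w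
      rw [neg_mulVec, one_mulVec, neg_neg]
    rw [h4] at h3
    obtain ⟨k, hk⟩ := hT.isPGroup ⟨_, h3⟩
    have h5 : ε (w + w) ^ 2 ^ k = 1 := congrArg Subtype.val hk
    rw [← hpow] at h5
    have h6 := hinj _ h5
    rw [← two_nsmul, smul_smul, ← pow_succ, ← Nat.cast_smul_eq_nsmul (ZMod p), smul_eq_zero] at h6
    refine h6.resolve_left ?_
    rw [Nat.cast_pow]
    exact pow_ne_zero _ (by exact_mod_cast H53.two_ne_zero_of_ne (K := ZMod p) hp)
  let Γ : Subgroup (G × qd p) :=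
    { carrier := {x | ∃ w, ∃ n ∈ normalizer (T : Set G),
        x = (ε w * n, qdTr p w * qdLin p (θ n))}
      one_mem' := ⟨0, 1, one_mem _, by
        rw [h0, qdTr_zero, map_one, coe_one, map_one, one_mul, one_mul]; rfl⟩
      mul_mem' := by
        rintro _ _ ⟨w, n, hn, rfl⟩ ⟨w', n', hn', rfl⟩
        refine ⟨w + (θ n).1.1 *ᵥ w', n * n', mul_mem hn hn', Prod.ext ?_ ?_⟩
        · change _ * _ = _
          simp only
          rw [hadd, ← hconj]; group
        · change _ * _ = _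
          simp only
          rw [qdTr_add, map_mul, coe_mul, map_mul]
          conv_rhs => rw [← lin_qdLin (θ n).1, ← conj_qdTr, lin_qdLin]
          group
      inv_mem' := by
        rintro _ ⟨w, n, hn, rfl⟩
        refine ⟨(θ n⁻¹).1.1 *ᵥ (-w), n⁻¹, inv_mem hn, Prod.ext ?_ ?_⟩
        · change _⁻¹ = _
          simp only
          rw [← hconj, hneg]; group
        · change _⁻¹ = _
          simp only
          have h7 : qdTr p (-w) = (qdTr p w)⁻¹ :=
            eq_inv_of_mul_eq_one_left (by rw [← qdTr_add, neg_add_cancel, qdTr_zero])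
          conv_rhs => rw [← lin_qdLin (θ n⁻¹).1, ← conj_qdTr, lin_qdLin]
          rw [h7, map_inv, coe_inv, map_inv]; group }
  have hfst : Function.Injective ((MonoidHom.fst G (qd p)).comp Γ.subtype) := by
    rw [injective_iff_map_eq_one]
    rintro ⟨_, w, n, hn, rfl⟩ h
    have h3 : ε w * n = 1 := h
    have h4 : w = 0 := hNε w (by
      rw [eq_inv_of_mul_eq_one_left h3]; exact inv_mem hn)
    subst h4
    rw [h0, one_mul] at h3
    subst h3
    apply Subtype.ext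
    change (ε 0 * 1, qdTr p 0 * qdLin p (θ 1)) = 1
    rw [h0, qdTr_zero, map_one, coe_one, map_one, one_mul, one_mul]; rfl
  have hle : D.comap (H54.Aff.lin : qd p →* _) ≤
      ((MonoidHom.snd G (qd p)).comp Γ.subtype).range := by
    intro M hM
    obtain ⟨w, hw⟩ := exists_qdTr_mul M
    obtain ⟨n, hn, hnθ⟩ := hN ⟨H54.Aff.lin M, hM⟩
    exact ⟨⟨_, w, n, hn, rfl⟩, by
      change qdTr p w * qdLin p (θ n) = M
      rw [hnθ]; exact hw.symm⟩
  exact isSect_iff_involves.mp (((H6.isSect_self.of_injective _ hfst).of_surjective _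
    (MonoidHom.rangeRestrict_surjective _)).of_injective _ (inclusion_injective hle))

theorem zp_zp {g : G} (hg : g ^ p = 1) (a b : ZMod p) : zp (zp g a) b = zp g (a * b) := by
  rw [zp, zp, zp, ZMod.val_mul, ← pow_eq_pow_mod _ hg, pow_mul]

theorem zp_one {g : G} : zp g (1 : ZMod p) = g := by rw [zp, ZMod.val_one, pow_one]

/-- upper triangular matrices -/
def tri (t : (ZMod p)ˣ) (s : ZMod p) : SL(2, ZMod p) :=
  ⟨!![t, s; 0, (t⁻¹ : (ZMod p)ˣ)], by rw [Matrix.det_fin_two_of]; simp [-ZMod.inv_coe_unit]⟩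

theorem tri_mul (t t' : (ZMod p)ˣ) (s s' : ZMod p) :
    tri t s * tri t' s' = tri (t * t') (t * s' + s * (t'⁻¹ : (ZMod p)ˣ)) := by
  apply Subtype.ext
  change (tri t s).1 * (tri t' s').1 = _
  ext i j; fin_cases i <;> fin_cases j <;> 
    simp [tri, Matrix.mul_apply, Fin.sum_univ_two, mul_comm, -ZMod.inv_coe_unit]

theorem tri_one : tri (1 : (ZMod p)ˣ) 0 = 1 := by
  apply Subtype.ext
  ext i j; fin_cases i <;> fin_cases j <;> simp [tri]

theorem tri_mem {D : Subgroup SL(2, ZMod p)} {l : (ZMod p)ˣ} (hl : ∀ t, t ∈ zpowers l)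
    (h1 : tri 1 1 ∈ D) (h2 : tri l 0 ∈ D) {A : SL(2, ZMod p)} (hA : A.1 1 0 = 0) : A ∈ D := by
  have h3 : ∀ n : ℕ, tri 1 (n : ZMod p) ∈ D := fun n => by
    induction n with
    | zero => rw [Nat.cast_zero, tri_one]; exact one_mem _
    | succ n ih => simpa [tri_mul, add_comm] using mul_mem ih h1
  have h4 : ∀ n : ℕ, tri (l ^ n) 0 ∈ D := fun n => by
    induction n with
    | zero => rw [pow_zero, tri_one]; exact one_mem _
    | succ n ih => simpa [tri_mul, pow_succ, -ZMod.inv_coe_unit] using mul_mem ih h2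
  have hd := A.det_coe
  rw [Matrix.det_fin_two, hA, mul_zero, sub_zero] at hd
  obtain ⟨n, hn⟩ := mem_powers_iff_mem_zpowers.mpr (hl (Units.mkOfMulEqOne _ _ hd))
  have h5 := mul_mem (h4 n) (h3 (A.1 1 1 * A.1 0 1).val)
  have h6 : ((l ^ n : (ZMod p)ˣ) : ZMod p) = A.1 0 0 := congrArg Units.val hn
  have h7 : (((l ^ n)⁻¹ : (ZMod p)ˣ) : ZMod p) = A.1 1 1 := by
    have : l ^ n = Units.mkOfMulEqOne _ _ hd := hn
    rw [this]; rfl
  convert h5 using 1
  rw [tri_mul, mul_one, zero_mul, add_zero, ZMod.natCast_zmod_val, h6, ← mul_assoc, hd, one_mul]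
  apply Subtype.ext
  ext i j; fin_cases i <;> fin_cases j
  · exact h6.symm
  · rfl
  · exact hA
  · exact h7.symm

theorem BP.involves (hp : p ≠ 2) [Finite G] {l : (ZMod p)ˣ} (hl : ∀ t, t ∈ zpowers l)
    {e f u h : G} (H : BP l e f u h) : Involves (fOver (ZMod p)) G := by
  have hc : Commute e f := commutatorElement_eq_one_iff_commute.mp H.comm
  have hue : u * e * u⁻¹ = e := mul_inv_eq_one.mp H.ue
  have hadd : ∀ w w' : Fin 2 → ZMod p, crd e f (w + w') = crd e f w * crd e f w' := fun w w' => by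
    simp only [crd, Pi.add_apply, zp_add H.pe, zp_add H.pf]
    have : Commute (zp e (w' 0)) (zp f (w 1)) := hc.pow_pow _ _
    rw [mul_assoc, mul_assoc, ← mul_assoc (zp e (w' 0)), this.eq, mul_assoc]
  have hu : ∀ w : Fin 2 → ZMod p, u * crd e f w * u⁻¹ = crd e f ((tri 1 1).1 *ᵥ w) := fun w => by
    have h0 : (tri 1 1).1 *ᵥ w = ![w 0 + w 1, w 1] := by
      ext i; fin_cases i <;> simp [tri, mulVec, dotProduct, Fin.sum_univ_two, -ZMod.inv_coe_unit]
    rw [h0, crd, crd, ← conj_mul, conj_zp, conj_zp, hue, H.uf]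
    simp only [cons_val_zero, cons_val_one, zp_add H.pe]
    rw [mul_assoc, zp, zp, zp, zp, hc.mul_pow]
  have hh : ∀ w : Fin 2 → ZMod p, h * crd e f w * h⁻¹ = crd e f ((tri l 0).1 *ᵥ w) := fun w => by
    have h0 : (tri l 0).1 *ᵥ w = ![l * w 0, (l⁻¹ : (ZMod p)ˣ) * w 1] := by
      ext i; fin_cases i <;> simp [tri, mulVec, dotProduct, Fin.sum_univ_two, -ZMod.inv_coe_unit]
    rw [h0, crd, crd, ← conj_mul, conj_zp, conj_zp, H.he, H.hf, zp_zp H.pe, zp_zp H.pf]
    rfl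
  have hinj : ∀ w : Fin 2 → ZMod p, crd e f w = 1 → w = 0 := fun w hw => by
    have h1 : u * crd e f w * u⁻¹ = 1 := by rw [hw, mul_one, mul_inv_cancel]
    rw [crd, ← conj_mul, conj_zp, conj_zp, hue, H.uf, zp, zp, hc.mul_pow, ← mul_assoc,
      ((Commute.refl e).pow_pow _ _).eq, mul_assoc] at h1
    rw [crd, zp, zp] at hw
    rw [hw, mul_one] at h1
    have h2 : w 1 = 0 := eq_zero_of_zp H.pe H.ne h1
    rw [h2, ZMod.val_zero, pow_zero, mul_one] at hw
    have h3 : w 0 = 0 := eq_zero_of_zp H.pe H.ne hw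
    ext i; fin_cases i
    · exact h3
    · exact h2
  have hfst : Function.Injective
      ((MonoidHom.fst G _).comp (actGraph (MonoidHom.id G) p e f).subtype) := by
    rw [injective_iff_map_eq_one]
    rintro ⟨⟨x, A⟩, hz⟩ hx
    obtain rfl : x = 1 := hx
    have hA : A = 1 := by
      apply Subtype.ext
      refine Matrix.ext_of_mulVec_single fun i => ?_
      have h1 := hz (Pi.single i 1)
      simp only [map_one, one_mul, inv_one, mul_one] at h1
      have h0 : crd e f (0 : Fin 2 → ZMod p) = 1 := by simp [crd, zp_zero]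
      have h2 := hinj (A.1 *ᵥ Pi.single i 1 + -Pi.single i 1) (by
        rw [hadd, ← h1, ← hadd, add_neg_cancel, h0])
      rw [add_neg_eq_zero.mp h2]
      exact (one_mulVec _).symm
    subst hA; rfl
  have hε : ∀ w : Fin 2 → ZMod p, (crd e f w, 1) ∈ actGraph (MonoidHom.id G) p e f := by
    intro w w'
    change crd e f w * _ * (crd e f w)⁻¹ = crd e f ((1 : Matrix _ _ _) *ᵥ w')
    rw [one_mulVec, ← hadd, add_comm, hadd, mul_inv_cancel_right]
  have : Finite (actGraph (MonoidHom.id G) p e f) := Finite.of_injective _ hfst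
  set θ := (MonoidHom.snd G _).comp (actGraph (MonoidHom.id G) p e f).subtype with hθ
  have hB : ∀ A : SL(2, ZMod p), A.1 1 0 = 0 → A ∈ θ.range := fun A hA =>
    tri_mem (D := θ.range) hl ⟨⟨(u, _), hu⟩, rfl⟩ ⟨⟨(h, _), hh⟩, rfl⟩ hA
  have h1 := involves_of_natural hp (hB (-1) (by simp)) θ.rangeRestrict
    θ.rangeRestrict_surjective (fun w => ⟨_, hε w⟩)
    (fun w w' => Subtype.ext (Prod.ext (hadd w w') (mul_one _).symm))
    (fun w hw => hinj w (congrArg (fun z => z.1.1) hw))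
    (fun g w => Subtype.ext (Prod.ext (g.2 w) (by simp)))
  have h2 : fOver (ZMod p) ≤ (θ.range.comap (H54.Aff.lin : qd p →* _)).map (qd p).subtype :=
    (closure_le _).mpr fun M hM => ⟨⟨M, subset_closure hM.2⟩, hB _ hM.1, rfl⟩
  exact H54.involves_trans (H54.involves_trans (involves_of_injective
    ((equivMapOfInjective _ _ (qd p).subtype_injective).symm.toMonoidHom.comp (inclusion h2))
    ((MulEquiv.injective _).comp (inclusion_injective h2))) h1) (involves_of_injective _ hfst)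

theorem Dat.involves (hp : p ≠ 2) [Finite G] {l : (ZMod p)ˣ} (hl : ∀ t, t ∈ zpowers l)
    {N K : Subgroup G} {e f u h : G} (H : Dat l N e f u h) (he : e ∈ K) (hf : f ∈ K) (hu : u ∈ K)
    (hh : h ∈ K) : Involves (fOver (ZMod p)) K := by
  have h1 := (dat_iff H.en H.fn H.un H.hn).mp H
  have h2 : BP (G := ↥((K ⊓ N[N]) /ᵍ N)) l ⟨_, coset_mem_quo H.en ⟨he, H.en⟩⟩
      ⟨_, coset_mem_quo H.fn ⟨hf, H.fn⟩⟩ ⟨_, coset_mem_quo H.un ⟨hu, H.un⟩⟩
      ⟨_, coset_mem_quo H.hn ⟨hh, H.hn⟩⟩ :=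
    ⟨fun h => h1.ne (congrArg Subtype.val h), Subtype.ext h1.pe, Subtype.ext h1.pf,
      Subtype.ext h1.comm, Subtype.ext h1.ue, Subtype.ext h1.uf, Subtype.ext h1.he,
      Subtype.ext h1.hf⟩
  exact H54.involves_trans (h2.involves hp hl) (isSect_iff_involves.mp
    ((H6.isSect_self.of_injective _ (inclusion_injective inf_le_left)).of_surjective _
      (quoHom_surjective inf_le_right)))

theorem Dat.exists_eigen [Finite G] {l : (ZMod p)ˣ} {N Z : Subgroup G} {e f u h : G}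
    (H : Dat l N e f u h) (hZ : IsMulCommutative Z) (hZp : IsPGroup p Z) (he : e ∈ Z)
    (hh : h ∈ N[Z]) : ∃ z ∈ Z, z ≠ 1 ∧ z ^ p = 1 ∧ h * z * h⁻¹ = zp z (l : ZMod p) := by
  by_contra h0
  push Not at h0
  set n := (l : ZMod p).val
  have h1 : ∀ z ∈ Z, h * z * h⁻¹ = z ^ n → z = 1 := fun z hz h1 => by
    by_contra h2
    obtain ⟨k, hk⟩ := hZp ⟨z, hz⟩
    have h3 : z ^ p ^ k = 1 := congrArg Subtype.val hk
    obtain ⟨j, j1, j2⟩ : ∃ j, z ^ p ^ j ≠ 1 ∧ z ^ p ^ (j + 1) = 1 := by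
      by_contra h4
      push Not at h4
      have h5 : ∀ j, z ^ p ^ j ≠ 1 := fun j => by
        induction j with
        | zero => simpa using h2
        | succ j ih => exact h4 j ih
      exact h5 k h3
    refine h0 _ (pow_mem hz _) j1 (by rw [← pow_mul, ← pow_succ, j2]) ?_
    rw [← conj_pow, h1, zp, ← pow_mul, ← pow_mul, mul_comm]
  have h2 : ∀ x ∈ Z, ∀ y ∈ Z, h * x * h⁻¹ * (x ^ n)⁻¹ = h * y * h⁻¹ * (y ^ n)⁻¹ → x = y := by
    intro x hx y hy hxy
    refine mul_inv_eq_one.mp (h1 _ (mul_mem hx (inv_mem hy)) ?_)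
    have h3 : Commute x y⁻¹ := comm_of_isMulCommutative hZ hx (inv_mem hy)
    have h4 := H67.conj_mem_of_mem_normalizer hh hy
    rw [h3.mul_pow, inv_pow, ← conj_mul, mul_inv_eq_iff_eq_mul.mp hxy, ← conj_inv,
      comm_of_isMulCommutative hZ (mul_mem (mul_mem h4 (inv_mem (pow_mem hy n))) (pow_mem hx n))
        (inv_mem h4), ← mul_assoc, ← mul_assoc, inv_mul_cancel, one_mul,
      comm_of_isMulCommutative hZ (inv_mem (pow_mem hy n)) (pow_mem hx n)]
  have hm : Set.MapsTo (fun x => h * x * h⁻¹ * (x ^ n)⁻¹) (N ⊓ Z : Subgroup G)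
      (N ⊓ Z : Subgroup G) := fun x hx => mul_mem (H67.conj_mem_of_mem_normalizer
        (le_normalizer_inf (zpowers_le.mpr H.hn) (zpowers_le.mpr hh) (mem_zpowers h)) hx)
        (Subgroup.inv_mem _ (Subgroup.pow_mem _ hx n))
  obtain ⟨x, hx, hxe⟩ := (((Set.toFinite _).injOn_iff_bijOn_of_mapsTo hm).mp
    (fun x hx y hy h => h2 x hx.2 y hy.2 h)).surjOn
    (show h * e * h⁻¹ * (e ^ n)⁻¹ ∈ _ from ⟨H.he,
      Z.mul_mem (H67.conj_mem_of_mem_normalizer hh he) (Z.inv_mem (Z.pow_mem he n))⟩)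
  exact H.ne (h2 x hx.2 e he hxe ▸ hx.1)

theorem relIndex_eq [Finite G] {l : (ZMod p)ˣ} (hl : ∀ t, t ∈ zpowers l) {K : Subgroup G} {z h : G}
    (h1 : z ≠ 1) (hz : z ^ p = 1) (hh : h ∈ K) (he : h * z * h⁻¹ = zp z (l : ZMod p)) :
    Nat.card (zpowers z) = p ∧ (K ⊓ C[zpowers z]).relIndex (K ⊓ N[zpowers z]) = p - 1 := by
  have hc : Nat.card (zpowers z) = p := by rw [Nat.card_zpowers, orderOf_eq_prime hz h1]
  refine ⟨hc, ?_⟩
  have h2 : (K ⊓ C[zpowers z]).relIndex (K ⊓ N[zpowers z]) =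
      C[zpowers z].relIndex (K ⊓ N[zpowers z]) := by
    rw [← inf_relIndex_right C[zpowers z], ← inf_relIndex_right (K ⊓ C[zpowers z])]
    congr 1
    exact le_antisymm (inf_le_inf_right _ inf_le_right)
      (le_inf (le_inf (inf_le_right.trans inf_le_left) inf_le_left) inf_le_right)
  rw [h2]
  refine Nat.dvd_antisymm ?_ ?_
  · have := relIndex_cent_dvd_card_mulAut (A := K ⊓ N[zpowers z]) inf_le_right
    rwa [IsCyclic.card_mulAut, hc, Nat.totient_prime Fact.out] at this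
  have hn : h ∈ N[zpowers z] := mem_normalizer_fintype fun x hx => by
    obtain ⟨k, rfl⟩ := hx
    change h * z ^ k * h⁻¹ ∈ _
    rw [← conj_zpow, he]
    exact zpow_mem (pow_mem (mem_zpowers z) _) k
  have hN : (C[zpowers z].subgroupOf (K ⊓ N[zpowers z])).Normal :=
    ⟨fun x hx g => mem_subgroupOf.mpr (H67.conj_mem_of_mem_normalizer
      (normalizer_le_normalizer_centralizer _ g.2.2) (mem_subgroupOf.mp hx))⟩
  have h3 : h ^ C[zpowers z].relIndex (K ⊓ N[zpowers z]) ∈ C[zpowers z] :=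
    pow_index_mem (H := C[zpowers z].subgroupOf (K ⊓ N[zpowers z])) ⟨h, hh, hn⟩
  have h4 : ∀ n : ℕ, h ^ n * z * (h ^ n)⁻¹ = zp z ((l ^ n : (ZMod p)ˣ) : ZMod p) := fun n => by
    induction n with
    | zero => simp [zp_one]
    | succ n ih =>
      have : h ^ (n + 1) * z * (h ^ (n + 1))⁻¹ = h * (h ^ n * z * (h ^ n)⁻¹) * h⁻¹ := by
        rw [pow_succ']; group
      rw [this, ih, conj_zp, he, zp_zp hz, pow_succ', Units.val_mul]
  have h5 := h4 (C[zpowers z].relIndex (K ⊓ N[zpowers z]))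
  rw [conj_eq_of_mem_centralizer h3 (mem_zpowers z)] at h5
  have h6 := eq_zero_of_zp hz h1 (a := (l ^ C[zpowers z].relIndex (K ⊓ N[zpowers z]) :
    (ZMod p)ˣ) + -1) (by rw [zp_add hz, ← h5, zp_neg hz, zp_one, mul_inv_cancel])
  rw [← ZMod.card_units p, ← Nat.card_eq_fintype_card, ← orderOf_eq_card_of_forall_mem_zpowers hl]
  exact orderOf_dvd_of_pow_eq_one (Units.ext (add_neg_eq_zero.mp h6))

end Cfsg.Agent.H51.ZF
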