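import Mathlib
import Cfsg.Agent.H51.ZF3

/-! The L-lemma, control of fusion above a bound and maximal bad Sylow intersections. -/

set_option autoImplicit false

namespace Cfsg.Agent.H51.ZF

open Subgroup H63 H67
open scoped commutatorElement

variable {p : ℕ} [Fact p.Prime] {G : Type*} [Group G]

/-- a Borel datum inside `K`, carried by a `p`-subgroup, with fixed vector in `W` -/
def Out (l : (ZMod p)ˣ) (W K : Subgroup G) : Prop :=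
  ∃ (T N : Subgroup G) (e f u h : G), IsPGroup p T ∧ T ≤ K ∧ h ∈ K ∧ h ∈ N[T] ∧ N ≤ T ∧ e ∈ W ∧
    e ∈ T ∧ f ∈ T ∧ u ∈ T ∧ Dat l N e f u h

theorem Out.map {G' : Type*} [Group G'] {l : (ZMod p)ˣ} {W K : Subgroup G} (H : Out l W K)
    (φ : G →* G') (hφ : Function.Injective φ) : Out l (W.map φ) (K.map φ) := by
  obtain ⟨T, N, e, f, u, h, h1, h2, h3, h4, h5, h6, h7, h8, h9, h10⟩ := H
  exact ⟨T.map φ, N.map φ, φ e, φ f, φ u, φ h, h1.map φ, map_mono h2, mem_map_of_mem φ h3,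
    H67.map_le_normalizer_map φ le_rfl (mem_map_of_mem φ h4), map_mono h5, mem_map_of_mem φ h6,
    mem_map_of_mem φ h7, mem_map_of_mem φ h8, mem_map_of_mem φ h9, h10.map φ hφ⟩

theorem Out.conj {l : (ZMod p)ˣ} {W K : Subgroup G} (H : Out l W K) (g : G) :
    Out l (cj g W) (cj g K) := H.map _ (conj_injective' g)

theorem Out.mono {l : (ZMod p)ˣ} {W K W' K' : Subgroup G} (H : Out l W K) (hW : W ≤ W')
    (hK : K ≤ K') : Out l W' K' := by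
  obtain ⟨T, N, e, f, u, h, h1, h2, h3, h4, h5, h6, h7⟩ := H
  exact ⟨T, N, e, f, u, h, h1, h2.trans hK, hK h3, h4, h5, hW h6, h7⟩

theorem Dat.cent {l : (ZMod p)ˣ} {N T : Subgroup G} {e f u h c : G} (H : Dat l N e f u h)
    (hN : N ≤ T) (he : e ∈ T) (hf : f ∈ T) (hh : h ∈ N[T]) (hc : c ∈ C[T]) :
    Dat l N e f u (c * h) := by
  have h1 : ∀ x ∈ T, c * h * x * (c * h)⁻¹ = h * x * h⁻¹ := fun x hx => by
    rw [← conj_eq_of_mem_centralizer hc (H67.conj_mem_of_mem_normalizer hh hx)]; group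
  exact ⟨H.en, H.fn, H.un, mul_mem (centralizer_le_normalizer _ (centralizer_anti hN hc)) H.hn,
    H.ne, H.pe, H.pf, H.comm, H.ue, H.uf, h1 e he ▸ H.he, h1 f hf ▸ H.hf⟩

/-- the subgroup generated by the elements of `D` acting quadratically on `X / E` -/
def star (X E D : Subgroup G) : Subgroup G := closure {a | a ∈ D ∧ ∀ m ∈ X, ⁅a, ⁅a, m⁆⁆ ∈ E}

theorem star_le (X E D : Subgroup G) : star X E D ≤ D := (closure_le _).mpr fun _ h => h.1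

theorem star_mono (X E : Subgroup G) {D D' : Subgroup G} (h : D ≤ D') : star X E D ≤ star X E D' :=
  Subgroup.closure_mono fun _ ha => ⟨h ha.1, ha.2⟩

theorem mem_star {X E D : Subgroup G} {a : G} (h : a ∈ D) (h' : ∀ m ∈ X, ⁅a, ⁅a, m⁆⁆ ∈ E) :
    a ∈ star X E D := subset_closure ⟨h, h'⟩

theorem cj_star_le {X E D D' : Subgroup G} [E.Normal] {g : G} (hg : g ∈ N[X])
    (h : cj g (star X E D) ≤ D') : cj g (star X E D) ≤ star X E D' := by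
  conv_lhs => rw [star, cj_closure]
  refine (closure_le _).mpr ?_
  rintro _ ⟨a, ha, rfl⟩
  exact mem_star (h (conj_mem_cj (mem_star ha.1 ha.2)))
    (quad_cj hg (le_normalizer_of_normal (mem_top g)) ha.2)

theorem norm_star [Finite G] {X E D : Subgroup G} [E.Normal] {g : G} (hg : g ∈ N[X])
    (h : g ∈ N[D]) : g ∈ N[star X E D] :=
  mem_normalizer_of_cj_le (cj_star_le hg (cj_le_of_mem_normalizer h (star_le X E D)))

theorem l_lemma (hp : p ≠ 2) [Finite G] {X Y E L T : Subgroup G} [E.Normal] (hX : IsPGroup p X)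
    (hEY : E ≤ Y) (hYX : Y ≤ X) (hXY : X ≤ N[Y]) (hXL : X ≤ L) (hLX : L ≤ N[X])
    (hL : ¬ L ≤ N[Y]) (hT : H83.IsSylowIn p T L) (hTY : T ≤ N[Y])
    (hZ : ∀ a ∈ T, (∀ m ∈ X, ⁅a, ⁅a, m⁆⁆ ∈ E) → ∀ m ∈ Y, ⁅a, m⁆ ∈ E)
    (hN : L ⊓ N[star X E T] ≤ N[Y]) (l : (ZMod p)ˣ) : Out l Y (L ⊓ N[Y]) := by
  have hTM : H83.IsSylowIn p T (L ⊓ N[Y]) := hT.mono (le_inf hT.le hTY) inf_le_left
  have huniq : ∀ g ∈ L, star X E T ≤ N[cj g Y] → g ∈ N[Y] := fun g hg h => by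
    rw [← cj_normalizer, le_cj_iff_cj_inv_le] at h
    obtain ⟨m, hm, h1⟩ := hTM.exists_conj_le (le_inf (cj_le_of_mem (inv_mem hg)
      ((star_le X E T).trans hT.le)) h) (isPGroup_cj (hT.isPGroup.to_le (star_le X E T)) _)
    have h2 : cj (m * g⁻¹) (star X E T) ≤ T := by rw [cj_mul]; exact h1
    have h3 := L.mul_mem hm.1 (L.inv_mem hg)
    have h4 := hN ⟨h3, mem_normalizer_of_cj_le (cj_star_le (hLX h3) h2)⟩
    simpa using mul_mem (inv_mem h4) hm.2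
  let Two : Subgroup G → Prop := fun D => IsPGroup p D ∧ D ≤ L ∧ D ≤ star X E D ∧ D ≤ N[Y] ∧
    ∃ g ∈ L, g ∉ N[Y] ∧ D ≤ N[cj g Y]
  have hstep : ∀ D, Two D → ∃ a ∈ L ⊓ N[Y], a ∈ N[D] ∧ a ∉ D ∧ (∀ m ∈ X, ⁅a, ⁅a, m⁆⁆ ∈ E) ∧
      IsPGroup p ↥(D ⊔ zpowers a) := by
    rintro D ⟨h1, h2, h3, h4, g, hg, hgn, h5⟩
    obtain ⟨m, hm, h6⟩ := hTM.exists_le_conj (le_inf h2 h4) h1
    have hT' := hTM.cj_of_mem hm
    change D ≤ cj m T at h6
    change H83.IsSylowIn p (cj m T) _ at hT'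
    by_contra h7
    have h8 : star X E (cj m T ⊓ N[D]) = D := le_antisymm ((closure_le _).mpr fun a ha => by
      by_contra h9
      exact h7 ⟨a, hT'.le ha.1.1, ha.1.2, h9, ha.2,
        hT'.isPGroup.to_le (sup_le h6 (zpowers_le.mpr ha.1.1))⟩)
      (h3.trans (star_mono X E (le_inf h6 le_normalizer)))
    have h9 : cj m T ⊓ N[D] = cj m T :=
      eq_of_inf_normalizer_le hT'.isPGroup.isNilpotent inf_le_left fun x hx =>
        ⟨hx.1, h8 ▸ norm_star (hLX (hT'.le hx.1).1) hx.2⟩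
    rw [h9] at h8
    have h10 : cj m (star X E T) ≤ N[cj g Y] :=
      (cj_star_le (hLX hm.1) (cj_mono (star_le X E T))).trans (h8.le.trans h5)
    rw [cj_le_iff_le_cj_inv, cj_normalizer, cj_cj] at h10
    simpa [hgn] using mul_mem hm.2 (huniq _ (mul_mem (inv_mem hm.1) hg) h10)
  obtain ⟨g₀, hg₀, hg₀'⟩ := SetLike.not_le_iff_exists.mp hL
  obtain ⟨D, hD, hmax⟩ := Set.exists_max_image {D | Two D} (fun D => Nat.card D) (Set.toFinite _)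
    ⟨⊥, IsPGroup.of_bot, bot_le, bot_le, bot_le, g₀, hg₀, hg₀', bot_le⟩
  have hfix : ∀ D', Two D' → Nat.card D' = Nat.card D → ∀ a ∈ L ⊓ N[Y], a ∉ D' →
      (∀ m ∈ X, ⁅a, ⁅a, m⁆⁆ ∈ E) → IsPGroup p ↥(D' ⊔ zpowers a) →
      ∀ g ∈ L, D' ⊔ zpowers a ≤ N[cj g Y] → g ∈ N[Y] := by
    intro D' hD' hc a ha haD hq hpa g hg h
    by_contra hgn
    have h1 := hmax (D' ⊔ zpowers a) ⟨hpa, sup_le hD'.2.1 (zpowers_le.mpr ha.1),
      sup_le (hD'.2.2.1.trans (star_mono X E le_sup_left))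
        (zpowers_le.mpr (mem_star (mem_sup_right (mem_zpowers a)) hq)),
      sup_le hD'.2.2.2.1 (zpowers_le.mpr ha.2), g, hg, hgn, h⟩
    have h2 : D' < D' ⊔ zpowers a := left_lt_sup.mpr fun h => haD (h (mem_zpowers a))
    exact absurd (card_lt_of_lt h2) (by rw [hc]; exact not_lt.mpr h1)
  obtain ⟨a, ha, haN, haD, hq, hpa⟩ := hstep D hD
  have hD0 := hD
  obtain ⟨h1, h2, h3, h4, g, hg, hgn, h5⟩ := hD
  have hD' : Two (cj g⁻¹ D) := ⟨isPGroup_cj h1 _, cj_le_of_mem (inv_mem hg) h2,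
    (cj_mono h3).trans (cj_star_le (hLX (inv_mem hg)) (cj_mono (star_le X E D))),
    by rwa [← le_cj_iff_cj_inv_le, cj_normalizer], g⁻¹, inv_mem hg, by rwa [inv_mem_iff],
    by rw [← cj_normalizer]; exact cj_mono h4⟩
  obtain ⟨b, hb, hbN, hbD, hqb, hpb⟩ := hstep _ hD'
  have hap : IsPGroup p (zpowers a) := hpa.to_le le_sup_right
  obtain ⟨T', N, e, f, u, h, k1, k2, k3, k4, k5, k6, k7, k8, k9, k10, k11⟩ :=
    local_lemma hp (L := L ⊓ N[D]) hX hEY hYX hXY (inf_le_left.trans hLX) (fun h => by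
      have h6 : g * b * g⁻¹ ∈ N[Y] := h ⟨L.mul_mem (L.mul_mem hg hb.1) (L.inv_mem hg), by
        rw [← cj_normalizer] at hbN
        simpa [mul_assoc] using mem_cj.mp hbN⟩
      refine hgn (inv_mem_iff.mp (hfix _ hD' (card_cj _ _) b hb hbD hqb hpb _ (inv_mem hg) ?_))
      rw [← cj_normalizer]
      exact sup_le (cj_mono h4) (zpowers_le.mpr (mem_cj.mpr (by simpa using h6))))
      ⟨ha.1, haN⟩ (H83.isPGroup_iff.mp hap a (mem_zpowers a)) hq (fun y hy => by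
        obtain ⟨m, hm, h6⟩ := hTM.exists_conj_le (zpowers_le.mpr ha) hap
        have h7 := hZ _ (h6 (conj_mem_cj (mem_zpowers a)))
          (quad_cj (hLX hm.1) (le_normalizer_of_normal (mem_top m)) hq) _
          (H67.conj_mem_of_mem_normalizer hm.2 hy)
        rw [← conj_comm] at h7
        simpa [mul_assoc] using ‹E.Normal›.conj_mem' _ h7 m)
      (fun x hx h => by
        refine inv_mem_iff.mp (hfix D hD0 rfl a ha haD hq hpa _ (inv_mem hx.1) ?_)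
        rw [← cj_normalizer, ← cj_le_iff_le_cj_inv, cj_sup, cj_eq_self hx.2, cj_zpowers]
        exact sup_le h4 (zpowers_le.mpr h)) l
  have hle : N[Y] ⊓ (L ⊓ N[D] ⊔ X) ≤ L ⊓ N[Y] :=
    le_inf (inf_le_right.trans (sup_le inf_le_left hXL)) inf_le_left
  exact ⟨T', N, e, f, u, h, k1, k4.trans hle, hle k5, k6, k7.trans k2, k8, k2 (hYX k8), k2 k9, k10,
    k11⟩

theorem exists_norm [Finite G] {S W R : Subgroup G} (hS : IsPGroup p S) (hW : W ≤ S) (hR : R ≤ S)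
    (hn : S ≤ N[W]) (h : ¬ W ≤ R) : ∃ x ∈ W, x ∈ N[R] ∧ x ∉ R := by
  obtain ⟨y, hy, hyR⟩ := SetLike.exists_of_lt (H8.lt_inf_normalizer_of_lt
    (hS.to_le (sup_le hR hW)) (left_lt_sup.mpr h))
  obtain ⟨r, hr, x, hx, rfl⟩ := (mem_sup_of_le_normalizer (hR.trans hn)).mp hy.1
  exact ⟨x, hx, (mul_mem_cancel_left (le_normalizer hr)).mp hy.2, fun h => hyR (mul_mem hr h)⟩

theorem control [Finite G] {K S W : Subgroup G} (hS : H83.IsSylowIn p S K) (hWS : W ≤ S)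
    (hW : IsMulCommutative W) (hn : S ≤ N[W]) {n : ℕ}
    (hgood : ∀ D : Subgroup G, n ≤ Nat.card D → ∀ g₁ ∈ K, ∀ g₂ ∈ K, D ≤ cj g₁ S → D ≤ cj g₂ S →
      cj g₁ W ⊓ D = cj g₂ W ⊓ D) (R : Subgroup G) :
    n ≤ Nat.card R → ∀ g₁ ∈ K, ∀ g₂ ∈ K, R ≤ cj g₁ S → R ≤ cj g₂ S →
      ∃ c ∈ K ⊓ C[R], cj c (cj g₁ W) = cj g₂ W := by
  induction R using subgroup_induction_gt with
  | h R ih =>
  intro hR g₁ hg₁ g₂ hg₂ h₁ h₂
  have hA := hgood R hR g₁ hg₁ g₂ hg₂ h₁ h₂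
  have hc : Nat.card (cj g₁ W) = Nat.card (cj g₂ W) := by rw [card_cj, card_cj]
  by_cases k₁ : cj g₁ W ≤ R
  · refine ⟨1, one_mem _, (cj_one _).trans (eq_of_le_of_card_ge ?_ hc.ge)⟩
    exact (le_inf le_rfl k₁).trans (hA.le.trans inf_le_left)
  by_cases k₂ : cj g₂ W ≤ R
  · refine ⟨1, one_mem _, (cj_one _).trans (eq_of_le_of_card_ge ?_ hc.le).symm⟩
    exact (le_inf le_rfl k₂).trans (hA.ge.trans inf_le_left)
  have hn' : ∀ g, cj g S ≤ N[cj g W] := fun g => by rw [← cj_normalizer]; exact cj_mono hn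
  have hSK : ∀ g ∈ K, cj g S ≤ K := fun g hg => cj_le_of_mem hg hS.le
  set Δ := K ⊓ N[R] ⊓ C[cj g₁ W ⊓ R] ⊓ stabMod R (cj g₁ W ⊓ R) with hΔ
  have hx : ∀ g ∈ K, R ≤ cj g S → ¬ cj g W ≤ R → cj g₁ W ⊓ R = cj g W ⊓ R →
      ∃ x ∈ cj g S, x ∈ Δ ∧ x ∉ R := fun g hg h k hA' => by
    obtain ⟨x, hx, j1, j2⟩ := exists_norm (isPGroup_cj hS.isPGroup g) (cj_mono hWS) h (hn' g) k
    have j3 : x ∈ C[cj g₁ W ⊓ R] := by
      rw [hA']
      exact le_cent_of_comm (isMulCommutative_cj_iff.mpr hW) le_rfl inf_le_left hx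
    refine ⟨x, cj_mono hWS hx, ⟨⟨⟨hSK g hg (cj_mono hWS hx), j1⟩, j3⟩, mem_stabMod.mpr
      ⟨centralizer_le_normalizer _ j3, fun r hr => ?_⟩⟩, j2⟩
    rw [hA']
    refine ⟨?_, comm_mem j1 hr⟩
    rw [← commutatorElement_inv]
    exact Subgroup.inv_mem _ (comm_mem (hn' g (h hr)) hx)
  obtain ⟨x₁, j₁, d₁, n₁⟩ := hx g₁ hg₁ h₁ k₁ rfl
  obtain ⟨x₂, j₂, d₂, n₂⟩ := hx g₂ hg₂ h₂ k₂ hA
  have hΔK : Δ ≤ K ⊓ N[R] := inf_le_left.trans inf_le_left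
  have hRp := (isPGroup_cj hS.isPGroup g₁).to_le h₁
  obtain ⟨Q, hQ, hQ1⟩ := H83.exists_isSylowIn_ge (zpowers_le.mpr d₁)
    ((isPGroup_cj hS.isPGroup g₁).to_le (zpowers_le.mpr j₁))
  obtain ⟨k, hk, hk'⟩ := hQ.exists_conj_le (zpowers_le.mpr d₂)
    ((isPGroup_cj hS.isPGroup g₂).to_le (zpowers_le.mpr j₂))
  have hJ : Δ ≤ N[K ⊓ C[R]] := le_normalizer_inf (le_normalizer_of_le (hΔK.trans inf_le_left))
    (le_normalizer_centralizer (hΔK.trans inf_le_right))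
  obtain ⟨q, hq, j, hj, rfl⟩ := (H83.mem_sup_left_norm' (hQ.le.trans hJ)).mp
    (hQ.le_sup_of_pMod hJ ((pMod_cent (K := Δ) (A := cj g₁ W ⊓ R) (hRp.to_le inf_le_right)
      (fun g hg => (mem_stabMod.mp hg.2).2) (fun g hg x hx =>
        commutatorElement_eq_one_iff_mul_comm.mpr
          (mem_centralizer_iff.mp hg.1.2 x hx).symm)).inf_of_le (hΔK.trans inf_le_left)) hk)
  have hx₂ : j * x₂ * j⁻¹ ∈ Q := by
    have := mul_mem (mul_mem (inv_mem hq) (hk' (conj_mem_cj (mem_zpowers x₂)))) hq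
    simpa [mul_assoc] using this
  obtain ⟨g₃, hg₃, h₃⟩ := hS.exists_le_conj (P := Q ⊔ R)
    (sup_le (hQ.le.trans (hΔK.trans inf_le_left)) (h₁.trans (hSK g₁ hg₁)))
    (H83.isPGroup_sup hQ.isPGroup hRp (hQ.le.trans (hΔK.trans inf_le_right)))
  have hjR : cj j R = R := cj_eq_self_of_mem_centralizer hj.2
  have lt₁ : R < R ⊔ zpowers x₁ := left_lt_sup.mpr fun h => n₁ (h (mem_zpowers _))
  have lt₂ : R < R ⊔ zpowers (j * x₂ * j⁻¹) := left_lt_sup.mpr fun h => n₂ (by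
    have := h (mem_zpowers _)
    rwa [← hjR, conj_mem_cj_iff] at this)
  obtain ⟨c₁, hc₁, e₁⟩ := ih _ lt₁ (hR.trans (card_lt_of_lt lt₁).le) g₁ hg₁ g₃ hg₃
    (sup_le h₁ (zpowers_le.mpr j₁))
    ((sup_le le_sup_right (hQ1.trans le_sup_left)).trans h₃)
  obtain ⟨c₂, hc₂, e₂⟩ := ih _ lt₂ (hR.trans (card_lt_of_lt lt₂).le) g₃ hg₃ (j * g₂)
    (mul_mem hj.1 hg₂) ((sup_le le_sup_right ((zpowers_le.mpr hx₂).trans le_sup_left)).trans h₃)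
    (by
      rw [cj_mul]
      exact sup_le (hjR.ge.trans (cj_mono h₂)) (zpowers_le.mpr (conj_mem_cj j₂)))
  refine ⟨j⁻¹ * c₂ * c₁, mul_mem (mul_mem (inv_mem hj) ⟨hc₂.1, centralizer_anti le_sup_left hc₂.2⟩)
    ⟨hc₁.1, centralizer_anti le_sup_left hc₁.2⟩, ?_⟩
  rw [cj_mul, e₁, cj_mul, e₂, cj_mul, cj_inv_cj]

/-- transport of a datum into the normalizer of `W` -/
theorem Out.of_control [Finite G] {K S W V T N : Subgroup G} (hS : H83.IsSylowIn p S K)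
    (hWS : W ≤ S) (hW : IsMulCommutative W) (hn : S ≤ N[W]) {n : ℕ}
    (hgood : ∀ D : Subgroup G, n ≤ Nat.card D → ∀ g₁ ∈ K, ∀ g₂ ∈ K, D ≤ cj g₁ S → D ≤ cj g₂ S →
      cj g₁ W ⊓ D = cj g₂ W ⊓ D) {l : (ZMod p)ˣ} {e f u h : G} (hT : T ≤ S) (hc : n ≤ Nat.card T)
    (hK : h ∈ K) (hh : h ∈ N[T]) (hN : N ≤ T) (heV : e ∈ V) (he : e ∈ T) (hf : f ∈ T) (hu : u ∈ T)
    (H : Dat l N e f u h) : Out l V N[W] := by
  obtain ⟨c, hc, h1⟩ := control hS hWS hW hn hgood T hc h hK 1 (one_mem _)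
    ((cj_eq_self hh).ge.trans (cj_mono hT)) (hT.trans (cj_one S).ge)
  rw [cj_cj, cj_one, cj_eq_self_iff] at h1
  exact ⟨T, N, e, f, u, c * h, hS.isPGroup.to_le hT, hT.trans hn, h1,
    mul_mem (centralizer_le_normalizer _ hc.2) hh, hN, heV, he, hf, hu, H.cent hN he hf hh hc.2⟩

/-- a bad Sylow intersection -/
def Bad (S W : Subgroup G) (k : ℕ) (D : Subgroup G) : Prop :=
  ∃ g₁ g₂, D ≤ cj g₁ S ∧ D ≤ cj g₂ S ∧ k ≤ Nat.card ↥(cj g₁ W ⊓ D) ∧ cj g₁ W ⊓ D ≠ cj g₂ W ⊓ D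

theorem maxbad [Finite G] {S W D : Subgroup G} {k : ℕ} (hS : H83.IsSylowIn p S ⊤)
    (hn : N[S] ≤ N[W]) (hD : Bad S W k D) : ∃ P T : Subgroup G,
      (∀ D', Bad S W k D' → Nat.card D' ≤ Nat.card P) ∧ H83.IsSylowIn p T N[P] ∧ T ≤ S ∧ P < T ∧
      k ≤ Nat.card ↥(W ⊓ P) ∧ ¬ N[P] ≤ N[W ⊓ P] := by
  obtain ⟨P, ⟨g₁, g₂, h₁, h₂, hk, hne⟩, hmax⟩ := Set.exists_max_image {D | Bad S W k D}
    (fun D => Nat.card D) (Set.toFinite _) ⟨D, hD⟩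
  have hlt : ∀ g g', P ≤ cj g S → P ≤ cj g' S → cj g W ⊓ P ≠ cj g' W ⊓ P →
      P < cj g S ⊓ N[P] := fun g g' h h' hne => by
    refine H8.lt_inf_normalizer_of_lt (isPGroup_cj hS.isPGroup g) (lt_of_le_of_ne h fun e => hne ?_)
    have := eq_of_le_of_card_ge (e.ge.trans h') (by rw [card_cj, card_cj])
    rw [cj_eq_cj_iff.mpr (hn (cj_eq_cj_iff.mp this))]
  have l₁ := hlt g₁ g₂ h₁ h₂ hne
  have l₂ := hlt g₂ g₁ h₂ h₁ hne.symm
  obtain ⟨T, hT, hT1⟩ := H83.exists_isSylowIn_ge (P := cj g₁ S ⊓ N[P]) inf_le_right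
    ((isPGroup_cj hS.isPGroup g₁).to_le inf_le_left)
  obtain ⟨g₃, -, h₃⟩ := hS.exists_le_conj le_top hT.isPGroup
  change T ≤ cj g₃ S at h₃
  obtain ⟨m, hm, h₄⟩ := hT.exists_conj_le (P := cj g₂ S ⊓ N[P]) inf_le_right
    ((isPGroup_cj hS.isPGroup g₂).to_le inf_le_left)
  change cj m (cj g₂ S ⊓ N[P]) ≤ T at h₄
  have hgood : ∀ R g g', P < R → R ≤ cj g S → R ≤ cj g' S → k ≤ Nat.card ↥(cj g W ⊓ P) →
      cj g W ⊓ P = cj g' W ⊓ P := fun R g g' hR h h' hk' => by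
    have h5 : cj g W ⊓ R = cj g' W ⊓ R := by
      by_contra h6
      exact absurd (card_lt_of_lt hR) (not_lt.mpr (hmax R ⟨g, g', h, h',
        hk'.trans (card_le_of_le (inf_le_inf_left _ hR.le)), h6⟩))
    rw [← inf_of_le_right hR.le, ← inf_assoc, h5, inf_assoc]
  have e₁ := hgood _ g₁ g₃ l₁ inf_le_left (hT1.trans h₃) hk
  have e₂ := hgood (cj m (cj g₂ S ⊓ N[P])) g₃ (m * g₂)
    (by rw [← cj_eq_self hm]; exact cj_lt_cj_iff.mpr (by rwa [cj_eq_self hm])) (h₄.trans h₃)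
    (by rw [cj_mul]; exact cj_mono inf_le_left) (e₁ ▸ hk)
  have e₃ : cj g₃⁻¹ (cj g₃ W ⊓ P) = W ⊓ cj g₃⁻¹ P := by rw [cj_inf, cj_inv_cj]
  refine ⟨cj g₃⁻¹ P, cj g₃⁻¹ T, fun D' h => (hmax D' h).trans (card_cj _ _).ge, ?_,
    le_cj_iff_cj_inv_le.mp h₃, cj_lt_cj_iff.mpr (l₁.trans_le hT1), ?_, fun h => hne ?_⟩
  · rw [← cj_normalizer]; exact hT.cj _
  · rw [← e₃, card_cj, ← e₁]; exact hk
  · rw [← e₃, ← cj_normalizer, ← cj_normalizer, cj_le_cj_iff] at h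
    refine cj_injective m ?_
    rw [e₁, cj_eq_self (h hm), e₂, cj_inf, cj_cj, cj_eq_self hm]

end Cfsg.Agent.H51.ZF
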