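import Mathlib
import Cfsg.Agent.H51.ZF4
import Cfsg.Agent.H51.Replacement

/-! If `Z(J(S))` is not strongly closed, its normalizer carries a Borel datum. -/

set_option autoImplicit false

namespace Cfsg.Agent.H51.ZF

open Subgroup H63 H67
open scoped commutatorElement Pointwise

universe u

variable {p : ℕ} [Fact p.Prime] {G : Type*} [Group G]

theorem case_one (hp : p ≠ 2) [Finite G] {S W : Subgroup G} (hS : H83.IsSylowIn p S ⊤)
    (hWS : W ≤ S) (hW : IsMulCommutative W) (hn : N[S] ≤ N[W])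
    (hwc : ∀ g, cj g W ≤ S → cj g W = W) (hsc : ¬ IsStronglyClosed W S) (l : (ZMod p)ˣ) :
    Out l W N[W] := by
  have hSW : S ≤ N[W] := le_normalizer.trans hn
  obtain ⟨w, hw, g, h1, h2⟩ : ∃ w ∈ W, ∃ g, g * w * g⁻¹ ∈ S ∧ g * w * g⁻¹ ∉ W := by
    by_contra h
    push Not at h
    exact hsc ⟨hWS, h⟩
  obtain ⟨P, T, hmax, hT, hTS, hPT, -, hL⟩ := maxbad (D := S ⊓ cj g S) (k := 0) hS hn
    ⟨g, 1, inf_le_right, inf_le_left.trans (cj_one S).ge, Nat.zero_le _, fun h => h2 (by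
      have := h.le ⟨conj_mem_cj hw, h1, conj_mem_cj (hWS hw)⟩
      rw [cj_one] at this
      exact this.1)⟩
  have hgood : ∀ D : Subgroup G, Nat.card P + 1 ≤ Nat.card D → ∀ g₁ g₂, D ≤ cj g₁ S →
      D ≤ cj g₂ S → cj g₁ W ⊓ D = cj g₂ W ⊓ D := fun D hD g₁ g₂ h₁ h₂ => by
    by_contra h
    exact absurd (hmax D ⟨g₁, g₂, h₁, h₂, Nat.zero_le _, h⟩) (by omega)
  have hPS := hPT.le.trans hTS
  obtain ⟨a, ha, haN, haP⟩ := exists_norm hS.isPGroup hWS hPS hSW fun h => hL fun x hx =>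
    le_normalizer_inf (zpowers_le.mpr (cj_eq_self_iff.mp (hwc x
      ((cj_le_of_mem_normalizer hx h).trans hPS)))) (zpowers_le.mpr hx) (mem_zpowers x)
  have hlt : P < P ⊔ zpowers a := left_lt_sup.mpr fun h => haP (h (mem_zpowers a))
  have hRS : P ⊔ zpowers a ≤ S := sup_le hPS (zpowers_le.mpr (hWS ha))
  have hcomm : ∀ m ∈ W, ⁅a, m⁆ ∈ (⊥ : Subgroup G) := fun m hm =>
    commutatorElement_eq_one_iff_mul_comm.mpr (comm_of_isMulCommutative hW ha hm)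
  have hTY : T ≤ N[W ⊓ P] := le_normalizer_inf (hTS.trans hSW) hT.le
  obtain ⟨T', N, e, f, u, h, k1, k2, k3, -, -, k6, k7, k8, k9, k10, k11⟩ :=
    local_lemma hp (E := ⊥) (Y := W ⊓ P) (L := N[P]) (hS.isPGroup.to_le hPS) bot_le inf_le_right
      (hPT.le.trans hTY) le_rfl hL haN (H83.isPGroup_iff.mp hS.isPGroup a (hWS ha))
      (fun m hm => hcomm _ (by
        rw [← commutatorElement_inv]
        exact W.inv_mem (comm_mem (hSW (hPS hm)) ha)))
      (fun m hm => hcomm m hm.1) (fun x hx h => by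
        have h3 : cj x (P ⊔ zpowers a) ≤ N[P] ⊓ N[W ⊓ P] := by
          rw [cj_sup, cj_eq_self hx, cj_zpowers]
          exact sup_le (le_inf le_normalizer (hPT.le.trans hTY)) (zpowers_le.mpr
            ⟨N[P].mul_mem (N[P].mul_mem hx haN) (N[P].inv_mem hx), h⟩)
        obtain ⟨m, hm, h4⟩ := (hT.mono (le_inf hT.le hTY) inf_le_left).exists_conj_le h3
          (isPGroup_cj (hS.isPGroup.to_le hRS) x)
        change cj m _ ≤ T at h4
        rw [cj_cj] at h4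
        have h5 := hgood _ (by rw [card_cj]; exact card_lt_of_lt hlt) (m * x) 1 (cj_mono hRS)
          ((h4.trans hTS).trans (cj_one S).ge)
        have h6 : cj (m * x) P = P := cj_eq_self (N[P].mul_mem hm.1 hx)
        have h7 : P ≤ cj (m * x) (P ⊔ zpowers a) := h6.ge.trans (cj_mono le_sup_left)
        have h8 : cj (m * x) (W ⊓ P) = W ⊓ P := by
          rw [cj_inf, h6, ← inf_of_le_right h7, ← inf_assoc, h5, cj_one, inf_assoc]
        exact (Subgroup.mul_mem_cancel_left _ hm.2).mp (cj_eq_self_iff.mp h8)) l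
  obtain ⟨g', -, hg'⟩ := hS.exists_le_conj le_top k1
  change T' ≤ cj g' S at hg'
  have hRT : P ⊔ zpowers a ≤ T' := sup_le k2 (zpowers_le.mpr k3)
  have h5 := hgood _ (card_lt_of_lt hlt) 1 g' (hRS.trans (cj_one S).ge) (hRT.trans hg')
  have h6 : e ∈ cj g' W := (h5.le ⟨(cj_one W).ge k8.1, mem_sup_left k8.2⟩).1
  have h7 := Out.of_control (K := ⊤) (hS.cj_of_mem (mem_top g')) (cj_mono hWS)
    (isMulCommutative_cj_iff.mpr hW) (by rw [← cj_normalizer]; exact cj_mono hSW)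
    (n := Nat.card P + 1) (fun D hD g₁ _ g₂ _ h₁ h₂ => by
      change D ≤ cj _ (cj _ _) at h₁ h₂
      rw [cj_cj] at h₁ h₂ ⊢
      rw [cj_cj]
      exact hgood D hD _ _ h₁ h₂) hg' ((card_lt_of_lt hlt).trans_le (card_le_of_le hRT))
    (mem_top h) k6 (k7.trans k2) h6 (k2 k8.2) (k2 k9) k10 k11
  have h8 := h7.conj g'⁻¹
  rwa [cj_normalizer, cj_inv_cj] at h8

theorem crit_pair [Finite G] {B P T T₂ L : Subgroup G} (hBP : B ≤ P) (hPT : P ≤ T)
    (hT : T₂ ≤ N[T]) (hL : L ≤ N[P])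
    (h : ∀ g, cj g B ≤ T → cj g⁻¹ B ≤ T → cj g B ≤ P) :
    ∃ R, B ≤ R ∧ R ≤ P ∧ T₂ ≤ N[R] ∧ L ≤ N[R] := by
  let w : ℕ → Set G := fun k => (T₂ : Set G) * ((L : Set G) * (T₂ : Set G)) ^ k
  have hinv : ∀ k, (w k)⁻¹ = w k := fun k => by
    simp only [w, mul_inv_rev, ← inv_pow, inv_coe_set]
    exact mul_pow_mul _ _ k
  have hsucc : ∀ k, w (k + 1) = (T₂ : Set G) * (L : Set G) * w k := fun k => by
    simp only [w, pow_succ', mul_assoc]
  have h1 : ∀ k, (∀ g ∈ w k, cj g B ≤ T) → ∀ g ∈ w k, cj g B ≤ P := fun k hk g hg =>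
    h g (hk g hg) (hk _ (by rw [← hinv]; simpa using hg))
  have h2 : ∀ k, ∀ g ∈ w k, cj g B ≤ T := fun k => by
    induction k with
    | zero =>
      intro g hg
      simp only [w, pow_zero, mul_one] at hg
      exact cj_le_of_mem_normalizer (hT hg) (hBP.trans hPT)
    | succ k ih =>
      rw [hsucc]
      rintro _ ⟨_, ⟨t, ht, x, hx, rfl⟩, g, hg, rfl⟩
      simp only [cj_mul]
      exact cj_le_of_mem_normalizer (hT ht)
        ((cj_le_of_mem_normalizer (hL hx) (h1 k ih g hg)).trans hPT)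
  refine ⟨sSup {K | ∃ k, ∃ g ∈ w k, K = cj g B}, le_sSup ⟨0, 1, ?_, (cj_one B).symm⟩,
    sSup_le ?_, H67.le_normalizer_sSup fun t ht K hK => ?_,
    H67.le_normalizer_sSup fun t ht K hK => ?_⟩
  · simp only [w, pow_zero, mul_one]; exact T₂.one_mem
  · rintro _ ⟨k, g, hg, rfl⟩
    exact h1 k (h2 k) g hg
  · obtain ⟨k, g, hg, rfl⟩ := hK
    exact ⟨k + 1, t * g, by
      rw [hsucc]; exact ⟨t, ⟨t, ht, 1, L.one_mem, mul_one t⟩, g, hg, rfl⟩, cj_cj _ _ _⟩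
  · obtain ⟨k, g, hg, rfl⟩ := hK
    exact ⟨k + 1, t * g, by
      rw [hsucc]; exact ⟨t, ⟨1, T₂.one_mem, t, ht, one_mul t⟩, g, hg, rfl⟩, cj_cj _ _ _⟩

theorem case_two (hp : p ≠ 2) [Finite G] {S E W : Subgroup G} [E.Normal]
    (hS : H83.IsSylowIn p S ⊤) (hEW : E ≤ W) (hWZ : W ≤ sInf (maxEA 0 S))
    (hH : N[sInf (maxEA 0 S)] ≤ N[W]) (hwc : ∃ g, cj g W ≤ S ∧ cj g W ≠ W)
    (hQ : ∀ a ∈ S, (∀ m ∈ W, ⁅a, ⁅a, m⁆⁆ ∈ E) → ∀ m ∈ W, ⁅a, m⁆ ∈ E) (l : (ZMod p)ˣ) :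
    Out l W N[W] := by
  obtain ⟨A₀, hA₀⟩ := maxEA_nonempty 0 S
  have hWS : W ≤ S := hWZ.trans ((sInf_le hA₀).trans hA₀.1)
  have hW : IsMulCommutative W := H67.isMulCommutative_of_le hA₀.2.1.1 (hWZ.trans (sInf_le hA₀))
  have hn : N[S] ≤ N[W] := (normalizer_le_normalizer_sInf 0 S).trans hH
  have hSW : S ≤ N[W] := le_normalizer.trans hn
  let Cf : Subgroup G → Subgroup G → Prop := fun R T =>
    W ≤ R ∧ IsPGroup p R ∧ H83.IsSylowIn p T N[R] ∧ T ≤ S ∧ ¬ N[R] ≤ N[W]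
  have hcfg : ∀ D g, W ≤ D → D ≤ S → D ≤ cj g S → cj g W ≠ W →
      ∃ R T, Cf R T ∧ Nat.card D < Nat.card T := fun D g h1 h2 h3 h4 => by
    have hb : Bad S W (Nat.card W) D := ⟨1, g, h2.trans (cj_one S).ge, h3, by
      rw [cj_one, inf_of_le_left h1], fun h => h4 (by
        rw [cj_one, inf_of_le_left h1] at h
        exact (eq_of_le_of_card_ge (h.le.trans inf_le_left) (card_cj g W).le).symm)⟩
    obtain ⟨P, T, hmax, hT, hTS, hPT, hk, hL⟩ := maxbad hS hn hb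
    have h5 : W ⊓ P = W := eq_of_le_of_card_ge inf_le_left hk
    exact ⟨P, T, ⟨inf_eq_left.mp h5, hS.isPGroup.to_le (hPT.le.trans hTS), hT, hTS, h5 ▸ hL⟩,
      (hmax D hb).trans_lt (card_lt_of_lt hPT)⟩
  obtain ⟨g₀, hg₀, hg₀'⟩ := hwc
  obtain ⟨R₀, T₀, h₀, -⟩ := hcfg W g₀⁻¹ le_rfl hWS (cj_le_iff_le_cj_inv.mp hg₀)
    fun h => hg₀' (eq_cj_iff_cj_inv_eq.mpr h).symm
  obtain ⟨T, ⟨R₁, h₁⟩, hTmax⟩ := Set.exists_max_image {T | ∃ R, Cf R T} (fun T => Nat.card T)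
    (Set.toFinite _) ⟨T₀, R₀, h₀⟩
  obtain ⟨R, -, ⟨hWR, hR, hT, hTS, hL⟩, hRmax⟩ := exists_maximal_ge (fun R => Cf R T) h₁
  have hRT : R ≤ T := hT.le_of_norm le_normalizer hR hT.le
  have hM : ∀ R' T₂, W ≤ R' → R' ≤ T₂ → T₂ ≤ S → T₂ ≤ N[R'] → T ≤ T₂ → (T < T₂ ∨ R < R') →
      N[R'] ≤ N[W] := fun R' T₂ h1 h2 h3 h4 h5 h6 => by
    by_contra h7
    obtain ⟨T', hT', h8⟩ := H83.exists_isSylowIn_ge h4 (hS.isPGroup.to_le h3)
    obtain ⟨g, -, hg⟩ := hS.exists_le_conj le_top hT'.isPGroup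
    change T' ≤ cj g S at hg
    by_cases h9 : cj g W = W
    · have h10 : cj g⁻¹ W = W := (eq_cj_iff_cj_inv_eq.mp h9.symm)
      have h11 := hTmax (cj g⁻¹ T') ⟨cj g⁻¹ R', h10.ge.trans (cj_mono h1),
        isPGroup_cj (hS.isPGroup.to_le (h2.trans h3)) _, by
          rw [← cj_normalizer]; exact hT'.cj _, le_cj_iff_cj_inv_le.mp hg, by
          rwa [← h10, ← cj_normalizer, ← cj_normalizer, cj_le_cj_iff]⟩
      simp only [card_cj] at h11
      obtain rfl : T = T' := eq_of_le_of_card_ge (h5.trans h8) h11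
      rcases h6 with h6 | h6
      · exact absurd h8 (not_le_of_gt h6)
      · exact h6.ne' (hRmax R' ⟨h1, hS.isPGroup.to_le (h2.trans h3), hT', hTS, h7⟩ h6.le)
    · obtain ⟨R'', T'', h10, h11⟩ := hcfg T₂ g (h1.trans h2) h3 (h8.trans hg) h9
      exact absurd ((hTmax T'' ⟨R'', h10⟩).trans (card_le_of_le h5)) (not_le.mpr h11)
  set B : Subgroup G := ⨆ x : N[R], cj (x : G) W with hB
  have hBle : ∀ K, W ≤ K → N[R] ≤ N[K] → B ≤ K := fun K h1 h2 =>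
    iSup_le fun x => cj_le_of_mem_normalizer (h2 x.2) h1
  have hBR : B ≤ R := hBle R hWR le_rfl
  have hWB : W ≤ B := (cj_one W).ge.trans (le_iSup (fun x : N[R] => cj (x : G) W) 1)
  have hLB : N[R] ≤ N[B] := fun g hg => mem_normalizer_of_cj_le (by
    rw [cj_iSup]
    exact iSup_le fun x => (cj_cj _ _ _).le.trans
      (le_iSup (fun x : N[R] => cj (x : G) W) (⟨g, hg⟩ * x)))
  have hE : ∀ A : Subgroup G, A ≤ N[E] := fun A => le_normalizer_of_normal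
  have hBW : ⁅B, W⁆ ≤ E := commutator_iSup_le (fun _ => hE _) fun x =>
    commutator_le.mpr fun a ha => hQ a (hTS (hRT (cj_le_of_mem_normalizer x.2 hWR ha))) fun m hm => by
      have h1 : m ∈ N[cj (x : G) W] := by
        rw [← cj_normalizer]
        exact cj_mono (hRT.trans (hTS.trans hSW)) ((cj_eq_self x.2).ge (hWR hm))
      have h2 : ⁅a, m⁆ ∈ cj (x : G) W := by
        rw [← commutatorElement_inv]
        exact Subgroup.inv_mem _ (comm_mem h1 ha)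
      rw [commutatorElement_eq_one_iff_mul_comm.mpr
        (comm_of_isMulCommutative (isMulCommutative_cj_iff.mpr hW) ha h2)]
      exact E.one_mem
  have hBB : ⁅B, B⁆ ≤ E := commutator_iSup_le (fun _ => hE _) fun x => by
    rw [commutator_comm, ← cj_eq_self (hLB x.2), ← cj_commutator]
    exact cj_le_of_mem_normalizer (hE ⊤ (mem_top _)) hBW
  obtain ⟨a, ha, haR, hq⟩ : ∃ a ∈ T, a ∉ R ∧ ∀ m ∈ B, ⁅a, ⁅a, m⁆⁆ ∈ E := by
    have hA : ∀ A ≤ T, ¬ A ≤ R → B ≤ N[A] → ⁅A, A⁆ ≤ E →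
        ∃ a ∈ T, a ∉ R ∧ ∀ m ∈ B, ⁅a, ⁅a, m⁆⁆ ∈ E := fun A h1 h2 h3 h4 => by
      obtain ⟨a, ha, haR⟩ := SetLike.not_le_iff_exists.mp h2
      refine ⟨a, h1 ha, haR, fun m hm => h4 (commutator_mem_commutator ha ?_)⟩
      rw [← commutatorElement_inv]
      exact A.inv_mem (comm_mem (h3 hm) ha)
    rcases hTS.eq_or_lt with rfl | hlt
    · have hc : ∀ A ∈ maxEA 0 T, ⁅A, A⁆ ≤ E := fun A h =>
        (isMulCommutative_iff_commutator.mp h.2.1.1).le.trans bot_le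
      by_cases h1 : ∀ U ∈ maxEA 0 T, B ≤ U
      · obtain ⟨U, hU, hUR⟩ : ∃ U ∈ maxEA 0 T, ¬ U ≤ R := by
          by_contra h2
          push Not at h2
          refine hL (le_trans ?_ ((normalizer_thompson_le_normalizer_sInf 0 T).trans hH))
          rw [← thompsonSubgroupOf_eq_of_le (thompsonSubgroupOf_le_iff.mpr h2) hRT]
          exact normalizer_le_normalizer_thompsonSubgroupOf 0 R
        exact hA U hU.1 hUR (le_normalizer_of_le (h1 U hU)) (hc U hU)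
      · push Not at h1
        obtain ⟨U, hU, hBU⟩ := h1
        obtain ⟨A, hA', -, h2, h3⟩ := maxEA_replacement_property hp hS.isPGroup (hBR.trans hRT)
          (hT.le.trans hLB) le_rfl le_normalizer hU
          (hBB.trans (hEW.trans (hWZ.trans (sInf_le hU)))) hBU
        refine hA A hA'.1 (fun h => h2 ?_) h3 (hc A hA')
        exact (hBle _ (hWZ.trans (le_sInf fun C hC => sInf_le
          (mem_maxEA_of_mem_of_le hA' h hRT hC))) (normalizer_le_normalizer_sInf 0 R)).trans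
          (sInf_le (mem_maxEA_of_le hA' h hRT))
    · by_contra h1
      obtain ⟨R', k1, k2, k3, k4⟩ := crit_pair (T₂ := S ⊓ N[T]) (L := N[R]) hBR hRT inf_le_right
        le_rfl fun g h2 h3 => by
          by_contra h4
          refine h1 (hA _ h2 h4 ?_ ?_)
          · rw [← cj_normalizer, le_cj_iff_cj_inv_le]
            exact h3.trans (hT.le.trans hLB)
          · rw [← cj_commutator]
            exact cj_le_of_mem_normalizer (hE ⊤ (mem_top _)) hBB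
      have h5 := H8.lt_inf_normalizer_of_lt hS.isPGroup hlt
      exact hL (k4.trans (hM R' _ (hWB.trans k1) (k2.trans (hRT.trans h5.le)) inf_le_left k3 h5.le
        (Or.inl h5)))
  refine (l_lemma hp (hR.to_le hBR) hEW hWB (hBR.trans (hRT.trans (hTS.trans hSW)))
    (hBR.trans le_normalizer) hLB hL hT (hTS.trans hSW)
    (fun a ha h => hQ a (hTS ha) fun m hm => h m (hWB hm)) ?_ l).mono le_rfl inf_le_right
  refine (le_normalizer_sup inf_le_left inf_le_right).trans (hM _ T (hWR.trans le_sup_left)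
    (sup_le hRT (star_le _ _ _)) hTS (le_normalizer_sup hT.le fun t ht =>
      norm_star (hLB (hT.le ht)) (le_normalizer ht)) le_rfl
    (Or.inr (left_lt_sup.mpr fun h => haR (h (mem_star ha hq)))))

theorem case_quad (hp : p ≠ 2) [Finite G] {S E W H : Subgroup G} [E.Normal]
    (hS : H83.IsSylowIn p S H) (hEW : E < W) (hWS : W ≤ S) (hW : IsMulCommutative W)
    (hH : H ≤ N[W]) (hch : ∀ K, E < K → K < W → ¬ H ≤ N[K]) {a : G} (ha : a ∈ S)
    (hq : ∀ m ∈ W, ⁅a, ⁅a, m⁆⁆ ∈ E) (hn : ¬ ∀ m ∈ W, ⁅a, m⁆ ∈ E) (l : (ZMod p)ˣ) :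
    Out l W H := by
  have hE : ∀ A : Subgroup G, A ≤ N[E] := fun A => le_normalizer_of_normal
  have hSW := hS.le.trans hH
  obtain ⟨K, hKW, ⟨hEK, hSK⟩, hmin⟩ :=
    exists_minimal_le (fun K => E < K ∧ S ≤ N[K]) (H := W) ⟨hEW, hSW⟩
  have hKS : ⁅K, S⁆ ≤ E := by
    by_contra h
    have := hmin (E ⊔ ⁅K, S⁆) ⟨left_lt_sup.mpr h, le_normalizer_sup (hE _)
      (le_normalizer_commutator hSK le_normalizer)⟩ (sup_le hEK.le (commutator_le_of_norm_left hSK))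
    exact not_le_of_gt hEK (le_of_le_sup_comm hS.isPGroup (hKW.trans hWS) hEK.le (hE _) hSK this.ge)
  have hKY : K ≤ W ⊓ stabMod (star W E S) E := le_inf hKW
    (le_stabMod_iff.mpr ⟨hE _, (commutator_mono le_rfl (star_le _ _ _)).trans hKS⟩)
  have hZ : ∀ a ∈ S, (∀ m ∈ W, ⁅a, ⁅a, m⁆⁆ ∈ E) → ∀ m ∈ W ⊓ stabMod (star W E S) E, ⁅a, m⁆ ∈ E :=
    fun a ha h m hm => by
      rw [← commutatorElement_inv]
      exact E.inv_mem ((mem_stabMod.mp hm.2).2 a (mem_star ha h))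
  have hN : H ⊓ N[star W E S] ≤ N[W ⊓ stabMod (star W E S) E] :=
    le_normalizer_inf (inf_le_left.trans hH) (norm_stabMod inf_le_right (hE _))
  exact (l_lemma hp (hS.isPGroup.to_le hWS) (hEK.le.trans hKY) inf_le_left
    (le_normalizer_of_le_centralizer (le_cent_of_comm hW le_rfl inf_le_left)) (hWS.trans hS.le) hH
    (hch _ (hEK.trans_le hKY) (lt_of_le_of_ne inf_le_left fun h => hn fun m hm =>
      hZ a ha hq m (h.ge hm))) hS
    ((le_inf hS.le fun t ht => norm_star (hSW ht) (le_normalizer ht)).trans hN) hZ hN l).mono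
    inf_le_left inf_le_left

theorem good_of_sc {K S W : Subgroup G}
    (h : ∀ x ∈ W, ∀ g ∈ K, g * x * g⁻¹ ∈ S → g * x * g⁻¹ ∈ W) (D : Subgroup G) (_ : 0 ≤ Nat.card D)
    (g₁ : G) (h₁ : g₁ ∈ K) (g₂ : G) (h₂ : g₂ ∈ K) (k₁ : D ≤ cj g₁ S) (k₂ : D ≤ cj g₂ S) :
    cj g₁ W ⊓ D = cj g₂ W ⊓ D := by
  have key : ∀ g ∈ K, ∀ g' ∈ K, D ≤ cj g' S → cj g W ⊓ D ≤ cj g' W ⊓ D := fun g hg g' hg' k x hx => by
    have h1 := h _ (mem_cj.mp hx.1) (g'⁻¹ * g) (K.mul_mem (K.inv_mem hg') hg)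
      (by simpa [mul_assoc] using mem_cj.mp (k hx.2))
    exact ⟨mem_cj.mpr (by simpa [mul_assoc] using h1), hx.2⟩
  exact le_antisymm (key g₁ h₁ g₂ h₂ k₂) (key g₂ h₂ g₁ h₁ k₁)

theorem minimal_case (hp : p ≠ 2) [Finite G] {S : Subgroup G} (hS : H83.IsSylowIn p S ⊤)
    (hsc : ¬ IsStronglyClosed (sInf (maxEA 0 S)) S)
    (hmin : ∀ K, N[sInf (maxEA 0 S)] ≤ K → K ≠ ⊤ → ∀ x ∈ sInf (maxEA 0 S), ∀ g ∈ K,
      g * x * g⁻¹ ∈ S → g * x * g⁻¹ ∈ sInf (maxEA 0 S)) (l : (ZMod p)ˣ) :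
    Out l (sInf (maxEA 0 S)) N[sInf (maxEA 0 S)] := by
  set Z := sInf (maxEA 0 S) with hZ
  obtain ⟨A₀, hA₀⟩ := maxEA_nonempty 0 S
  have hZS : Z ≤ S := (sInf_le hA₀).trans hA₀.1
  have hZc : IsMulCommutative Z := H67.isMulCommutative_of_le hA₀.2.1.1 (sInf_le hA₀)
  have hn : N[S] ≤ N[Z] := normalizer_le_normalizer_sInf 0 S
  have hSZ : S ≤ N[Z] := le_normalizer.trans hn
  have hEZ : Z.normalCore < Z := lt_of_le_of_ne (normalCore_le Z) fun h =>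
    hsc ⟨hZS, fun x hx g _ => h.le ((inferInstance : Z.normalCore.Normal).conj_mem x (h.ge hx) g)⟩
  obtain ⟨W, hWZ, ⟨hEW, hH⟩, hWmin⟩ :=
    exists_minimal_le (fun K => Z.normalCore < K ∧ N[Z] ≤ N[K]) (H := Z) ⟨hEZ, le_rfl⟩
  have hWS := hWZ.trans hZS
  have hW := H67.isMulCommutative_of_le hZc hWZ
  by_cases hQ : ∀ a ∈ S, (∀ m ∈ W, ⁅a, ⁅a, m⁆⁆ ∈ Z.normalCore) → ∀ m ∈ W, ⁅a, m⁆ ∈ Z.normalCore
  swap
  · push Not at hQ
    obtain ⟨a, ha, hq, m, hm, hm'⟩ := hQ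
    exact (case_quad hp (hS.mono hSZ le_top) hEW hWS hW hH
      (fun K h1 h2 h3 => h2.ne (hWmin K ⟨h1, h3⟩ h2.le)) ha hq (fun h => hm' (h m hm)) l).mono
      hWZ le_rfl
  have hsc' := hmin N[W] hH fun h => not_le_of_gt hEW (by
    have := normalizer_eq_top_iff.mp h
    exact normal_le_normalCore.mpr hWZ)
  have hout : Out l W N[W] := by
    by_cases hwc : ∀ g, cj g W ≤ S → cj g W = W
    · refine case_one hp hS hWS hW (hn.trans hH) hwc (fun h => hsc ⟨hZS, fun x hx g hg => ?_⟩) l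
      obtain ⟨c, hc, h1⟩ := control hS hWS hW (hSZ.trans hH)
        (good_of_sc fun x hx g _ => h.2 x hx g) (zpowers (g * x * g⁻¹)) (Nat.zero_le _) g
        (mem_top g) 1 (mem_top 1) (zpowers_le.mpr (conj_mem_cj (hZS hx)))
        ((zpowers_le.mpr hg).trans (cj_one S).ge)
      rw [cj_cj, cj_one, cj_eq_self_iff] at h1
      have h2 : c * g * x * (c * g)⁻¹ = g * x * g⁻¹ := by
        rw [← conj_eq_of_mem_centralizer hc.2 (mem_zpowers _)]; group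
      exact h2 ▸ hsc' x hx _ h1 (h2.symm ▸ hg)
    · push Not at hwc
      exact case_two hp hS hEW.le hWZ hH hwc hQ l
  have hS' := hS.mono (hSZ.trans hH) le_top
  obtain ⟨T, N, e, f, u, h, h1, h2, h3, h4, h5, h6, h7, h8, h9, h10⟩ := hout
  obtain ⟨n, hn', h11⟩ := hS'.exists_conj_le h2 h1
  refine Out.of_control hS' hZS hZc hSZ (good_of_sc hsc') h11 (Nat.zero_le _)
    (N[W].mul_mem (N[W].mul_mem hn' h3) (N[W].inv_mem hn')) ?_ (cj_mono h5)
    (hWZ (H67.conj_mem_of_mem_normalizer hn' h6)) (conj_mem_cj h7) (conj_mem_cj h8) (conj_mem_cj h9)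
    (h10.map _ (conj_injective' n))
  change _ ∈ N[cj n T]
  rw [← cj_normalizer]
  exact conj_mem_cj h4

theorem out_of_not_sc (hp : p ≠ 2) (l : (ZMod p)ˣ) (n : ℕ) : ∀ (G : Type u) [Group G] [Finite G],
    Nat.card G = n → ∀ S : Subgroup G, H83.IsSylowIn p S ⊤ →
      ¬ IsStronglyClosed (sInf (maxEA 0 S)) S → Out l (sInf (maxEA 0 S)) N[sInf (maxEA 0 S)] := by
  induction n using Nat.strong_induction_on with
  | _ n ih =>
  intro G _ _ hn S hS hsc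
  by_cases hmin : ∀ K, N[sInf (maxEA 0 S)] ≤ K → K ≠ ⊤ → ∀ x ∈ sInf (maxEA 0 S), ∀ g ∈ K,
      g * x * g⁻¹ ∈ S → g * x * g⁻¹ ∈ sInf (maxEA 0 S)
  · exact minimal_case hp hS hsc hmin l
  push Not at hmin
  obtain ⟨K, hK, hK', x, hx, g, hg, h1, h2⟩ := hmin
  have hSK : S ≤ K := (le_normalizer.trans (normalizer_le_normalizer_sInf 0 S)).trans hK
  have hZ : (sInf (maxEA 0 (S.subgroupOf K))).map K.subtype = sInf (maxEA 0 S) := by
    rw [map_sInf_maxEA 0 _ K.subtype_injective, map_subtype_subgroupOf hSK]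
  obtain ⟨S', hS'⟩ := (hS.mono hSK le_top).exists_sylow
  have h3 := (ih _ (by
    rw [← hn, ← card_top (G := G)]
    exact card_lt_of_lt (lt_top_iff_ne_top.mpr hK')) K rfl (S.subgroupOf K)
    (hS' ▸ H83.isSylowIn_top S') (fun h => h2 (by
      rw [← hZ] at hx ⊢
      obtain ⟨y, hy, rfl⟩ := hx
      exact mem_map_of_mem K.subtype (h.2 y hy ⟨g, hg⟩ h1)))).map K.subtype K.subtype_injective
  rw [map_subtype_normalizer, hZ] at h3
  exact h3.mono le_rfl inf_le_right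

end Cfsg.Agent.H51.ZF
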